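import Mathlib

/-!
# The theorem of Lang for the general linear group
-/

set_option autoImplicit false

open Polynomial

namespace Cfsg.Agent.LinAlg

variable {K : Type*} [Field K] [IsAlgClosed K] {q : ℕ}

theorem exists_root_ne_zero {P : K[X]} (hP : 0 < P.natDegree) (hq : 1 < q) (hq0 : (q : K) = 0) :
    ∃ t : K, t ≠ 0 ∧ (P.eval t) ^ q = t := by
  classical
  set Q := P ^ q - X with hQ
  have hdeg : Q.natDegree = q * P.natDegree := by
    rw [hQ, natDegree_sub_eq_left_of_natDegree_lt, natDegree_pow]
    rw [natDegree_X, natDegree_pow]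
    nlinarith
  have hsep : Q.Separable := by
    rw [separable_def, hQ, derivative_sub, derivative_pow, hq0, map_zero, zero_mul, zero_mul, zero_sub, derivative_X]
    exact isCoprime_one_right.neg_right
  have hsplit : Q.Splits := IsAlgClosed.splits Q
  have hcard : 2 ≤ Q.roots.toFinset.card := by
    rw [Multiset.toFinset_card_of_nodup (nodup_roots hsep), ← hsplit.natDegree_eq_card_roots, hdeg]
    nlinarith
  obtain ⟨t, ht, ht0⟩ := Finset.exists_mem_ne (by omega : 1 < Q.roots.toFinset.card) 0
  refine ⟨t, ht0, ?_⟩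
  rw [Multiset.mem_toFinset, mem_roots', IsRoot, hQ, eval_sub, eval_pow, eval_X, sub_eq_zero] at ht
  exact ht.2

/-- the fixed vectors of a semilinear bijection span -/
theorem span_fixed_eq_top {V : Type*} [AddCommGroup V] [Module K V] [FiniteDimensional K V]
    (fr : K →+* K) (hfr : ∀ x, fr x = x ^ q) (hfrs : Function.Surjective fr) (hq : 1 < q) (hq0 : (q : K) = 0)
    (S : V →+ V) (hS : ∀ (c : K) v, S (c • v) = fr c • S v) (hinj : Function.Injective S) :
    Submodule.span K {v | S v = v} = ⊤ := by
  classical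
  set W := Submodule.span K {v | S v = v} with hW
  have hSW : ∀ w ∈ W, S w ∈ W ∧ (∃ w' ∈ W, S w' = w) ∧ ∃ w' ∈ W, S w' - w' = w := by
    intro w hw
    obtain ⟨N, c, f, rfl⟩ := Submodule.mem_span_set'.mp hw
    have hf : ∀ d : Fin N → K, ∑ i, d i • (f i : V) ∈ W := fun d =>
      Submodule.sum_mem _ fun i _ => Submodule.smul_mem _ _ (Submodule.subset_span (f i).2)
    have hSf : ∀ d : Fin N → K, S (∑ i, d i • (f i : V)) = ∑ i, fr (d i) • (f i : V) := fun d => by
      rw [map_sum]; exact Finset.sum_congr rfl fun i _ => by rw [hS, (f i).2]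
    refine ⟨by rw [hSf]; exact hf _, ?_, ?_⟩
    · choose d hd using fun i => hfrs (c i)
      exact ⟨_, hf d, by rw [hSf]; simp [hd]⟩
    · have hroot : ∀ a : K, ∃ x, fr x - x = a := fun a => by
        obtain ⟨x, hx⟩ := IsAlgClosed.exists_root (X ^ q - X - C a) (by
          have hdeg : (X ^ q - X - C a : K[X]).natDegree = q := by
            rw [sub_sub, natDegree_sub_eq_left_of_natDegree_lt (by rw [natDegree_X_pow, natDegree_X_add_C]; exact hq),
              natDegree_X_pow]
          intro h0
          have := natDegree_eq_zero_iff_degree_le_zero.mpr h0.le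
          omega)
        rw [IsRoot, eval_sub, eval_sub, eval_pow, eval_X, eval_C, sub_eq_zero] at hx
        exact ⟨x, by rw [hfr, hx]⟩
      choose d hd using fun i => hroot (c i)
      refine ⟨_, hf d, ?_⟩
      rw [hSf, ← Finset.sum_sub_distrib]
      exact Finset.sum_congr rfl fun i _ => by rw [← sub_smul, hd]
  by_contra hne
  obtain ⟨u, -, hu⟩ := SetLike.exists_of_lt (lt_top_iff_ne_top.mpr hne)
  let e : ℕ → V := fun i => S^[i] u
  have he : ∀ i, S (e i) = e (i + 1) := fun i => (Function.iterate_succ_apply' S i u).symm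
  let U : ℕ → Submodule K V := fun k => W ⊔ Submodule.span K (e '' (Finset.range k : Set ℕ))
  have hU : ∀ k i, i < k → e i ∈ U k := fun k i hi =>
    Submodule.mem_sup_right (Submodule.subset_span ⟨i, by simpa using hi, rfl⟩)
  have hex : ∃ k, e k ∈ U k := by
    by_contra hall
    push Not at hall
    have hlt : ∀ k, Module.finrank K (U k) < Module.finrank K (U (k + 1)) := fun k => by
      refine Submodule.finrank_lt_finrank_of_lt (lt_of_le_of_ne (sup_le_sup_left (Submodule.span_mono ?_) _) fun h => ?_)
      · exact Set.image_mono (by simp)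
      · exact hall k (h ▸ hU (k + 1) k k.lt_succ_self)
    have hge : ∀ k, k ≤ Module.finrank K (U k) := fun k => by
      induction k with
      | zero => exact Nat.zero_le _
      | succ k ih => have := hlt k; omega
    have := Submodule.finrank_le (U (Module.finrank K V + 1))
    have := hge (Module.finrank K V + 1)
    omega
  obtain ⟨k, hk, hmin⟩ : ∃ k, e k ∈ U k ∧ ∀ j < k, e j ∉ U j :=
    ⟨Nat.find hex, Nat.find_spec hex, fun j hj => Nat.find_min hex hj⟩
  obtain ⟨l, rfl⟩ : ∃ l, k = l + 1 := by
    refine ⟨k - 1, ?_⟩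
    rcases k with - | k
    · exfalso
      apply hu
      simpa [U, e] using hk
    · omega
  obtain ⟨w, hw, y, hy, hwy⟩ := Submodule.mem_sup.mp hk
  obtain ⟨a, ha⟩ : ∃ a : ℕ → K, y = ∑ i ∈ Finset.range (l + 1), a i • e i := by
    obtain ⟨a, ha1, ha2⟩ := (Finsupp.mem_span_image_iff_linearCombination K).mp hy
    refine ⟨⇑a, ?_⟩
    rw [← ha2, Finsupp.linearCombination_apply]
    exact Finsupp.sum_of_support_subset a
      (fun i hi => by simpa using (Finsupp.mem_supported K a).mp ha1 hi) _ (fun i _ => zero_smul K (e i))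
  have ha0 : a 0 ≠ 0 := by
    intro h0
    choose b hb using fun i => hfrs (a (i + 1))
    set z := e l - ∑ i ∈ Finset.range l, b i • e i with hz
    have hSz : S z = w := by
      rw [hz, map_sub, map_sum, he, ← hwy, ha, Finset.sum_range_succ', h0, zero_smul, add_zero]
      rw [Finset.sum_congr rfl (fun i _ => show S (b i • e i) = a (i + 1) • e (i + 1) by rw [hS, hb, he])]
      abel
    obtain ⟨w', hw', hww⟩ := (hSW w hw).2.1
    refine hmin l (Nat.lt_succ_self l) ?_
    have : e l = z + ∑ i ∈ Finset.range l, b i • e i := by rw [hz]; abel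
    rw [this]
    refine add_mem ?_ (Submodule.sum_mem _ fun i hi => Submodule.smul_mem _ _ (hU l i (Finset.mem_range.mp hi)))
    rw [show z = w' from hinj (hSz.trans hww.symm)]
    exact Submodule.mem_sup_left hw'
  let c : ℕ → K[X] := fun i => Nat.rec (C (a 0) * X) (fun i ci => ci ^ q + C (a (i + 1)) * X) i
  have hcd : ∀ i, (c i).natDegree = q ^ i := by
    intro i
    induction i with
    | zero => show (C (a 0) * X).natDegree = 1; exact natDegree_C_mul_X _ ha0
    | succ i ih =>
      show (c i ^ q + C (a (i + 1)) * X).natDegree = _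
      have hpos : 1 < (c i ^ q).natDegree := by
        rw [natDegree_pow, ih]
        calc 1 < q := hq
          _ = q * 1 := (mul_one q).symm
          _ ≤ q * q ^ i := Nat.mul_le_mul_left q (Nat.one_le_pow _ _ (by omega))
      rw [natDegree_add_eq_left_of_natDegree_lt (lt_of_le_of_lt (natDegree_C_mul_le _ _) (by rw [natDegree_X]; exact hpos)),
        natDegree_pow, ih, pow_succ']
  obtain ⟨t, ht0, ht⟩ := exists_root_ne_zero (P := c l) (by rw [hcd]; exact pow_pos (by omega) _) hq hq0
  let d : ℕ → K := fun i => (c i).eval t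
  set v := ∑ i ∈ Finset.range (l + 1), d i • e i with hv
  have hSv : S v - v = t • w := by
    have h1 : S v = ∑ i ∈ Finset.range l, fr (d i) • e (i + 1) + t • (w + y) := by
      rw [hv, map_sum, Finset.sum_range_succ, hS, he, hfr (d l), show d l ^ q = t from ht, hwy]
      exact congrArg (· + _) (Finset.sum_congr rfl fun i _ => by rw [hS, he])
    have h2 : v = ∑ i ∈ Finset.range l, (fr (d i) + t * a (i + 1)) • e (i + 1) + (t * a 0) • e 0 := by
      rw [hv, Finset.sum_range_succ']
      congr 1
      · refine Finset.sum_congr rfl fun i _ => ?_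
        congr 1
        show ((c i ^ q + C (a (i + 1)) * X : K[X])).eval t = _
        simp only [eval_add, eval_pow, eval_mul, eval_C, eval_X, hfr, d]; ring
      · congr 1
        show (C (a 0) * X : K[X]).eval t = _
        simp only [eval_mul, eval_C, eval_X]; ring
    rw [h1, h2, ha, smul_add, Finset.smul_sum, Finset.sum_range_succ' (fun i => t • a i • e i)]
    simp only [add_smul, Finset.sum_add_distrib, smul_smul]
    abel
  obtain ⟨w', hw', hww'⟩ := (hSW _ (W.smul_mem t hw)).2.2
  have hfix : S (v - w') = v - w' := by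
    rw [map_sub, ← sub_eq_zero]
    rw [show S v - S w' - (v - w') = (S v - v) - (S w' - w') by abel, hSv, hww', sub_self]
  have hvW : v ∈ W := by
    have := add_mem (Submodule.subset_span (R := K) (show v - w' ∈ {v | S v = v} from hfix)) hw'
    rwa [sub_add_cancel] at this
  have hdl : d l ≠ 0 := fun h => ht0 (by rw [← ht, show (c l).eval t = 0 from h, zero_pow (by omega)])
  refine hmin l (Nat.lt_succ_self l) ?_
  have hel : d l • e l ∈ U l := by
    have : d l • e l = v - ∑ i ∈ Finset.range l, d i • e i := by rw [hv, Finset.sum_range_succ]; abel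
    rw [this]
    exact sub_mem (Submodule.mem_sup_left hvW)
      (Submodule.sum_mem _ fun i hi => Submodule.smul_mem _ _ (hU l i (Finset.mem_range.mp hi)))
  rwa [Submodule.smul_mem_iff _ hdl] at hel

/-- **Lang's theorem** -/
theorem lang (p : ℕ) [Fact p.Prime] [CharP K p] (f : ℕ) (hf : 1 ≤ f) (n : ℕ) (g : GL (Fin n) K) :
    ∃ x : GL (Fin n) K, g = x * (Matrix.GeneralLinearGroup.map (iterateFrobenius K p f) x)⁻¹ := by
  classical
  set fr := iterateFrobenius K p f
  let S : (Fin n → K) →+ (Fin n → K) :=
    { toFun := fun v => (g : Matrix (Fin n) (Fin n) K).mulVec (fun i => fr (v i))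
      map_zero' := by simp [show (fun _ : Fin n => (0 : K)) = 0 from rfl]
      map_add' := fun u v => by
        rw [← Matrix.mulVec_add]; congr 1; funext i; simp }
  have hS : ∀ (c : K) v, S (c • v) = fr c • S v := fun c v => by
    show (g : Matrix (Fin n) (Fin n) K).mulVec (fun i => fr ((c • v) i)) = _
    rw [show (fun i => fr ((c • v) i)) = fr c • (fun i => fr (v i)) by funext i; simp, Matrix.mulVec_smul]
    rfl
  have hgi : Function.Injective (g : Matrix (Fin n) (Fin n) K).mulVec :=
    Matrix.mulVec_injective_iff_isUnit.mpr g.isUnit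
  have hinj : Function.Injective S := fun u v h => funext fun i => fr.injective (congrFun (hgi h) i)
  have hfr : ∀ x, fr x = x ^ p ^ f := fun x => iterateFrobenius_def p f x
  have hfrs : Function.Surjective fr := fun y => by
    obtain ⟨x, hx⟩ := IsAlgClosed.exists_pow_nat_eq y (n := p ^ f) (pow_pos (Fact.out : p.Prime).pos f)
    exact ⟨x, by rw [hfr, hx]⟩
  have hspan := span_fixed_eq_top (q := p ^ f) fr hfr hfrs (Nat.one_lt_pow (by omega) (Fact.out : p.Prime).one_lt)
    (by rw [Nat.cast_pow, CharP.cast_eq_zero, zero_pow (by omega)]) S hS hinj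
  obtain ⟨bset, hb1, hb2, hb3⟩ := exists_linearIndependent K {v : Fin n → K | S v = v}
  have hb : ⊤ ≤ Submodule.span K (Set.range ((↑) : bset → Fin n → K)) := by
    rw [Subtype.range_coe, hb2, hspan]
  let b₀ := Module.Basis.mk hb3 hb
  let b := b₀.reindex (b₀.indexEquiv (Pi.basisFun K (Fin n)))
  have hfix : ∀ i, S (b i) = b i := fun i => by
    rw [Module.Basis.reindex_apply, Module.Basis.mk_apply]; exact hb1 (Subtype.coe_prop _)
  let M : Matrix (Fin n) (Fin n) K := Matrix.of fun i j => b j i
  have hM : IsUnit M := by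
    rw [show M = (Pi.basisFun K (Fin n)).toMatrix b by
      ext i j; simp [M, Module.Basis.toMatrix_apply]]
    haveI := Module.Basis.invertibleToMatrix (Pi.basisFun K (Fin n)) b
    exact isUnit_of_invertible _
  refine ⟨hM.unit, eq_mul_inv_of_mul_eq (Units.ext ?_)⟩
  ext i j
  show ((g : Matrix (Fin n) (Fin n) K) * M.map fr) i j = M i j
  exact congrFun (hfix j) i

end Cfsg.Agent.LinAlg
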