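import Mathlib

/-!
The number of nilpotent matrices of size `n` over a field with `q` elements is `q ^ (n * (n - 1))`.
-/

set_option autoImplicit false

namespace Cfsg.Agent.LinAlg.NilCount

open Matrix Module

variable {F : Type*} [Field F]

/-- iterated images of a vector under a nilpotent map are independent up to the first zero -/
theorem linearIndependent_iterates {ι : Type*} [Fintype ι] [DecidableEq ι] {T : Matrix ι ι F} {v : ι → F} {k : ℕ}
    (hk : (T ^ k) *ᵥ v = 0) (hmin : ∀ i < k, (T ^ i) *ᵥ v ≠ 0) :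
    LinearIndependent F (fun i : Fin k => (T ^ (i : ℕ)) *ᵥ v) := by
  classical
  rw [Fintype.linearIndependent_iff]
  intro c hc
  by_contra hne
  push Not at hne
  obtain ⟨i, hi⟩ := hne
  have hex : ∃ i : ℕ, ∃ hi : i < k, c ⟨i, hi⟩ ≠ 0 := ⟨i, i.2, hi⟩
  obtain ⟨hi0, hci⟩ := Nat.find_spec hex
  have h1 := congrArg (fun x => (T ^ (k - 1 - Nat.find hex)) *ᵥ x) hc
  simp only [Matrix.mulVec_sum, Matrix.mulVec_smul, Matrix.mulVec_mulVec, Matrix.mulVec_zero, ← pow_add] at h1
  rw [Finset.sum_eq_single ⟨Nat.find hex, hi0⟩] at h1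
  · rw [show k - 1 - Nat.find hex + Nat.find hex = k - 1 by omega] at h1
    exact (smul_eq_zero.1 h1).elim hci (hmin (k - 1) (by omega))
  · intro j _ hj
    rcases Nat.lt_or_ge (j : ℕ) (Nat.find hex) with hlt | hge
    · have := Nat.find_min hex hlt
      push Not at this
      rw [this j.2, zero_smul]
    · have hne' : (j : ℕ) ≠ Nat.find hex := fun e => hj (Fin.ext e)
      obtain ⟨d, hd⟩ := Nat.exists_eq_add_of_le (show k ≤ k - 1 - Nat.find hex + j by omega)
      rw [hd, add_comm k d, pow_add, ← Matrix.mulVec_mulVec, hk, Matrix.mulVec_zero, smul_zero]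
  · intro h; exact absurd (Finset.mem_univ _) h

/-- the shift block -/
def sh (F : Type*) [Field F] (k : ℕ) : Matrix (Fin k) (Fin k) F :=
  Matrix.of fun j i => if (j : ℕ) = i + 1 then 1 else 0

theorem sh_nilpotent (k : ℕ) : IsNilpotent (sh F k) := by
  refine ⟨k, ?_⟩
  have hNk : ∀ (l : ℕ) (i j : Fin k), (sh F k ^ l) i j ≠ 0 → (i : ℕ) = j + l := by
    intro l
    induction l with
    | zero =>
      intro i j h
      by_contra hne
      exact h (by simp [Matrix.one_apply, show i ≠ j from fun e => hne (by simp [e])])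
    | succ l ih =>
      intro i j h
      rw [pow_succ, Matrix.mul_apply] at h
      obtain ⟨m, -, hm⟩ := Finset.exists_ne_zero_of_sum_ne_zero h
      have h1 := ih i m (left_ne_zero_of_mul hm)
      have h2 := right_ne_zero_of_mul hm
      simp [sh] at h2
      omega
  ext i j
  by_contra h
  have := hNk k i j h
  omega

/-- the prescribed image of a tuple -/
def next {V : Type*} [Zero V] {k : ℕ} (w : Fin k → V) (i : Fin k) : V :=
  if h : (i : ℕ) + 1 < k then w ⟨i + 1, h⟩ else 0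

/-- nilpotent matrices shifting the standard tuple are block triangular -/
theorem std_iff {k r : ℕ} (T : Matrix (Fin k ⊕ Fin r) (Fin k ⊕ Fin r) F) :
    (IsNilpotent T ∧ ∀ i, T *ᵥ Pi.single (Sum.inl i) 1 =
      next (fun j : Fin k => (Pi.single (Sum.inl j) 1 : Fin k ⊕ Fin r → F)) i) ↔
    ∃ B D, IsNilpotent D ∧ T = fromBlocks (sh F k) B 0 D := by
  have hnext : ∀ (i : Fin k) (x : Fin k ⊕ Fin r),
      next (fun j : Fin k => (Pi.single (Sum.inl j) 1 : Fin k ⊕ Fin r → F)) i x =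
        Sum.elim (fun j => sh F k j i) 0 x := by
    intro i x
    unfold next
    rcases x with x | x
    · split_ifs with h
      · simp [sh, Pi.single_apply, Fin.ext_iff]
      · simp only [Pi.zero_apply, Sum.elim_inl, sh, Matrix.of_apply]
        rw [if_neg (by omega)]
    · split_ifs with h <;> simp
  have hblk : ∀ (B : Matrix (Fin k) (Fin r) F) (D : Matrix (Fin r) (Fin r) F) (l : ℕ),
      ∃ B', (fromBlocks (sh F k) B 0 D) ^ l = fromBlocks (sh F k ^ l) B' 0 (D ^ l) := by
    intro B D l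
    induction l with
    | zero => exact ⟨0, by simp [fromBlocks_one]⟩
    | succ l ih =>
      obtain ⟨B', hB'⟩ := ih
      exact ⟨sh F k ^ l * B + B' * D, by rw [pow_succ, hB', fromBlocks_multiply]; simp [pow_succ]⟩
  constructor
  · rintro ⟨⟨N, hN⟩, hcol⟩
    have hT : T = fromBlocks (sh F k) T.toBlocks₁₂ 0 T.toBlocks₂₂ := by
      ext x y
      rcases y with y | y
      · have h := congrFun (hcol y) x
        rw [Matrix.mulVec_single_one, hnext] at h
        rcases x with x | x <;> simpa using h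
      · rcases x with x | x <;> rfl
    refine ⟨_, _, ⟨N, ?_⟩, hT⟩
    obtain ⟨B', hB'⟩ := hblk T.toBlocks₁₂ T.toBlocks₂₂ N
    rw [← hT, hN] at hB'
    rw [← fromBlocks_zero] at hB'
    exact (fromBlocks_inj.1 hB').2.2.2.symm
  · rintro ⟨B, D, ⟨N, hN⟩, rfl⟩
    obtain ⟨M, hM⟩ := sh_nilpotent (F := F) k
    refine ⟨⟨(N + M) + (N + M), ?_⟩, fun i => ?_⟩
    · obtain ⟨B', hB'⟩ := hblk B D (N + M)
      rw [pow_add, hB', pow_eq_zero_of_le (Nat.le_add_left M N) hM, pow_eq_zero_of_le (Nat.le_add_right N M) hN,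
        fromBlocks_multiply]
      simp
    · funext x
      rw [Matrix.mulVec_single_one, hnext]
      rcases x with x | x <;> simp

variable [Fintype F]

/-- the count of nilpotent matrices -/
noncomputable def N (F : Type*) [Field F] (n : ℕ) : ℕ :=
  Nat.card {T : Matrix (Fin n) (Fin n) F // IsNilpotent T}

theorem card_std (k r : ℕ) :
    Nat.card {T : Matrix (Fin k ⊕ Fin r) (Fin k ⊕ Fin r) F // IsNilpotent T ∧ ∀ i, T *ᵥ Pi.single (Sum.inl i) 1 =
      next (fun j : Fin k => (Pi.single (Sum.inl j) 1 : Fin k ⊕ Fin r → F)) i} =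
    Fintype.card F ^ (k * r) * N F r := by
  classical
  rw [show Fintype.card F ^ (k * r) = Nat.card (Matrix (Fin k) (Fin r) F) by
      simp [Nat.card_eq_fintype_card, Matrix, ← pow_mul, mul_comm], N, ← Nat.card_prod]
  symm
  refine Nat.card_congr (Equiv.ofBijective
    (fun z => ⟨fromBlocks (sh F k) z.1 0 z.2.1, (std_iff _).2 ⟨z.1, z.2.1, z.2.2, rfl⟩⟩) ⟨?_, ?_⟩)
  · intro a b h
    obtain ⟨-, h1, -, h2⟩ := fromBlocks_inj.1 (congrArg Subtype.val h)
    exact Prod.ext h1 (Subtype.ext h2)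
  · rintro ⟨T, hT⟩
    obtain ⟨B, D, hD, rfl⟩ := (std_iff T).1 hT
    exact ⟨(B, ⟨D, hD⟩), rfl⟩

theorem card_shift {k r : ℕ} (w : Fin k → (Fin (k + r) → F)) (hw : LinearIndependent F w) :
    Nat.card {T : Matrix (Fin (k + r)) (Fin (k + r)) F // IsNilpotent T ∧ ∀ i, T *ᵥ w i = next w i} =
      Fintype.card F ^ (k * r) * N F r := by
  classical
  obtain ⟨L, hL⟩ : ∃ L : (Fin k ⊕ Fin r → F) ≃ₗ[F] (Fin (k + r) → F), ∀ i, L (Pi.single (Sum.inl i) 1) = w i := by
    let b := Basis.sumExtend hw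
    haveI : Fintype (Basis.sumExtendIndex hw) := Fintype.ofFinite _
    have hc : Fintype.card (Basis.sumExtendIndex hw) = r := by
      have := Module.finrank_eq_card_basis b
      simp only [Module.finrank_fintype_fun_eq_card, Fintype.card_sum, Fintype.card_fin] at this
      omega
    let e : Fin k ⊕ Basis.sumExtendIndex hw ≃ Fin k ⊕ Fin r :=
      Equiv.sumCongr (Equiv.refl _) (Fintype.equivFinOfCardEq hc)
    refine ⟨(b.reindex e).equivFun.symm, fun i => ?_⟩
    rw [Basis.equivFun_symm_apply, Finset.sum_eq_single (Sum.inl i) (fun j _ hj => by simp [hj]) (by simp),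
      Pi.single_eq_same, one_smul, Basis.reindex_apply]
    show b (Sum.inl i) = w i
    simp only [b, Basis.sumExtend, Basis.reindex_apply, Basis.coe_extend]
    rfl
  let Φ : Matrix (Fin (k + r)) (Fin (k + r)) F ≃ₐ[F] Matrix (Fin k ⊕ Fin r) (Fin k ⊕ Fin r) F :=
    Matrix.toLinAlgEquiv'.trans ((LinearEquiv.conjAlgEquiv F L.symm).trans Matrix.toLinAlgEquiv'.symm)
  have hΦ : ∀ T x, Φ T *ᵥ x = L.symm (T *ᵥ L x) := fun T x => by
    rw [← Matrix.toLinAlgEquiv'_apply]
    simp [Φ, LinearEquiv.conjAlgEquiv_apply]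
  rw [← card_std (F := F) k r]
  refine Nat.card_congr (Φ.toEquiv.subtypeEquiv fun T => and_congr ?_ (forall_congr' fun i => ?_))
  · exact (IsNilpotent.map_iff Φ.injective).symm
  · show _ ↔ Φ T *ᵥ Pi.single (Sum.inl i) 1 = _
    have hn : L (next (fun j : Fin k => (Pi.single (Sum.inl j) 1 : Fin k ⊕ Fin r → F)) i) = next w i := by
      unfold next
      split_ifs with h
      · exact hL _
      · exact map_zero L
    rw [hΦ, hL, L.symm_apply_eq, hn]

theorem card_pairs {k r : ℕ} :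
    Nat.card {z : {T : Matrix (Fin (k + r)) (Fin (k + r)) F // IsNilpotent T} × (Fin (k + r) → F) //
      (z.1.1 ^ k) *ᵥ z.2 = 0 ∧ ∀ i < k, (z.1.1 ^ i) *ᵥ z.2 ≠ 0} =
    (∏ i : Fin k, (Fintype.card F ^ (k + r) - Fintype.card F ^ (i : ℕ))) * (Fintype.card F ^ (k * r) * N F r) := by
  classical
  have hLI : Nat.card {s : Fin k → (Fin (k + r) → F) // LinearIndependent F s} =
      ∏ i : Fin k, (Fintype.card F ^ (k + r) - Fintype.card F ^ (i : ℕ)) := by
    rw [card_linearIndependent (by simp), Module.finrank_fintype_fun_eq_card, Fintype.card_fin]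
  let A := {z : {T : Matrix (Fin (k + r)) (Fin (k + r)) F // IsNilpotent T} × (Fin (k + r) → F) //
      (z.1.1 ^ k) *ᵥ z.2 = 0 ∧ ∀ i < k, (z.1.1 ^ i) *ᵥ z.2 ≠ 0}
  let S := {s : Fin k → (Fin (k + r) → F) // LinearIndependent F s}
  let fib : S → Type _ := fun w => {T : Matrix (Fin (k + r)) (Fin (k + r)) F // IsNilpotent T ∧ ∀ i, T *ᵥ w.1 i = next w.1 i}
  let f : A → Σ w : S, fib w := fun z =>
    ⟨⟨fun i => (z.1.1.1 ^ (i : ℕ)) *ᵥ z.1.2, linearIndependent_iterates z.2.1 z.2.2⟩, ⟨z.1.1.1, z.1.1.2, fun i => by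
      unfold next
      rw [Matrix.mulVec_mulVec, ← pow_succ']
      split_ifs with h
      · rfl
      · rw [show (i : ℕ) + 1 = k by omega]; exact z.2.1⟩⟩
  have hf : Function.Bijective f := by
    refine ⟨fun a b h => ?_, ?_⟩
    · have h1 : a.1.1.1 = b.1.1.1 := congrArg (fun z : Σ w : S, fib w => z.2.1) h
      refine Subtype.ext (Prod.ext (Subtype.ext h1) ?_)
      rcases Nat.eq_zero_or_pos k with rfl | hk
      · have ha := a.2.1; have hb := b.2.1
        rw [pow_zero, Matrix.one_mulVec] at ha hb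
        rw [ha, hb]
      · have h2 := congrArg (fun z : Σ w : S, fib w => z.1.1 ⟨0, hk⟩) h
        simpa [f] using h2
    · rintro ⟨⟨w, hw⟩, T, hT, hTw⟩
      have hit : ∀ (hk : 0 < k) (i : ℕ) (hi : i < k), (T ^ i) *ᵥ w ⟨0, hk⟩ = w ⟨i, hi⟩ := by
        intro hk i
        induction i with
        | zero => intro hi; simp
        | succ i ih =>
          intro hi
          rw [pow_succ', ← Matrix.mulVec_mulVec, ih (by omega), hTw]
          exact dif_pos hi
      rcases Nat.eq_zero_or_pos k with rfl | hk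
      · refine ⟨⟨(⟨T, hT⟩, 0), by simp, fun i hi => absurd hi (by omega)⟩, Sigma.subtype_ext ?_ rfl⟩
        exact Subtype.ext (funext fun i => i.elim0)
      · refine ⟨⟨(⟨T, hT⟩, w ⟨0, hk⟩), ?_, fun i hi => ?_⟩, Sigma.subtype_ext (Subtype.ext (funext fun i => hit hk i i.2)) rfl⟩
        · show (T ^ k) *ᵥ w ⟨0, hk⟩ = 0
          obtain ⟨j, rfl⟩ : ∃ j, k = j + 1 := ⟨k - 1, by omega⟩
          rw [pow_succ', ← Matrix.mulVec_mulVec, hit hk j (by omega), hTw]
          exact dif_neg (by simp)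
        · show (T ^ i) *ᵥ w ⟨0, hk⟩ ≠ 0
          rw [hit hk i hi]; exact hw.ne_zero _
  show Nat.card A = _
  rw [Nat.card_eq_of_bijective f hf, Nat.card_sigma, Finset.sum_congr rfl fun w _ => card_shift w.1 w.2,
    Finset.sum_const, smul_eq_mul, Finset.card_univ, ← Nat.card_eq_fintype_card, hLI]

theorem telescope {q : ℕ} (hq : 0 < q) (n j : ℕ) (hj : j ≤ n) :
    (∑ k ∈ Finset.range j, (∏ i ∈ Finset.range k, (q ^ n - q ^ i)) * q ^ ((n - k) * (n - 1))) +
      (∏ i ∈ Finset.range j, (q ^ n - q ^ i)) * q ^ (n * (n - j)) = q ^ (n * n) := by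
  induction j with
  | zero => simp
  | succ j ih =>
    rw [← ih (by omega), Finset.sum_range_succ, Finset.prod_range_succ, add_assoc]
    congr 1
    set P := ∏ i ∈ Finset.range j, (q ^ n - q ^ i)
    obtain ⟨d, rfl⟩ : ∃ d, n = j + 1 + d := ⟨n - j - 1, by omega⟩
    have h1 : q ^ j ≤ q ^ (j + 1 + d) := Nat.pow_le_pow_right hq (by omega)
    rw [show j + 1 + d - j = d + 1 by omega, show j + 1 + d - (j + 1) = d by omega,
      show j + 1 + d - 1 = j + d by omega]
    calc P * q ^ ((d + 1) * (j + d)) + P * (q ^ (j + 1 + d) - q ^ j) * q ^ ((j + 1 + d) * d)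
        = P * ((q ^ (j + 1 + d) - q ^ j + q ^ j) * q ^ ((j + 1 + d) * d)) := by
          rw [show (d + 1) * (j + d) = (j + 1 + d) * d + j by ring, pow_add q ((j + 1 + d) * d) j]; ring
      _ = _ := by
          rw [Nat.sub_add_cancel h1, ← pow_add]
          congr 2
          ring

theorem card_nilpotent (n : ℕ) : N F n = Fintype.card F ^ (n * (n - 1)) := by
  classical
  induction n using Nat.strong_induction_on with
  | _ n ih =>
  set q := Fintype.card F
  have hq : 0 < q := Fintype.card_pos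
  let NT := {T : Matrix (Fin n) (Fin n) F // IsNilpotent T}
  have hn : ∀ (T : NT) (v : Fin n → F), (T.1 ^ n) *ᵥ v = 0 := fun T v => by
    have h1 := sub_eq_zero.1 (Matrix.isNilpotent_charpoly_sub_pow_of_isNilpotent T.2).eq_zero
    have h2 := Matrix.aeval_self_charpoly T.1
    rw [h1, map_pow, Polynomial.aeval_X, Fintype.card_fin] at h2
    rw [h2, Matrix.zero_mulVec]
  let len : NT × (Fin n → F) → ℕ := fun z => Nat.find (⟨n, hn z.1 z.2⟩ : ∃ k, (z.1.1 ^ k) *ᵥ z.2 = 0)
  have hlen : ∀ z k, len z = k ↔ (z.1.1 ^ k) *ᵥ z.2 = 0 ∧ ∀ i < k, (z.1.1 ^ i) *ᵥ z.2 ≠ 0 :=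
    fun z k => Nat.find_eq_iff _
  have hsum : q ^ n * N F n = ∑ k ∈ Finset.range (n + 1),
      (∏ i ∈ Finset.range k, (q ^ n - q ^ i)) * (q ^ (k * (n - k)) * N F (n - k)) := by
    have h1 : q ^ n * N F n = (Finset.univ : Finset (NT × (Fin n → F))).card := by
      rw [Finset.card_univ, Fintype.card_prod, N, Nat.card_eq_fintype_card, Fintype.card_fun, Fintype.card_fin, mul_comm]
    rw [h1, Finset.card_eq_sum_card_fiberwise (f := len) (t := Finset.range (n + 1))
      (fun z _ => Finset.mem_coe.2 (Finset.mem_range.2 (Nat.lt_succ_of_le (Nat.find_min' _ (hn z.1 z.2)))))]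
    refine Finset.sum_congr rfl fun k hk => ?_
    rw [Finset.mem_range] at hk
    obtain ⟨r, rfl⟩ : ∃ r, n = k + r := ⟨n - k, by omega⟩
    rw [Nat.add_sub_cancel_left, ← Fin.prod_univ_eq_prod_range (fun i => q ^ (k + r) - q ^ i) k, ← card_pairs,
      ← Fintype.card_subtype, ← Nat.card_eq_fintype_card]
    exact Nat.card_congr (Equiv.subtypeEquivRight fun z => hlen z k)
  rw [Finset.sum_range_succ'] at hsum
  simp only [Finset.range_zero, Finset.prod_empty, Nat.zero_mul, pow_zero, Nat.sub_zero, one_mul] at hsum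
  rcases Nat.eq_zero_or_pos n with rfl | hn0
  · rw [N]
    simp only [Nat.zero_mul, pow_zero]
    exact Nat.card_eq_one_iff_unique.2 ⟨⟨fun a b => Subtype.ext (Subsingleton.elim _ _)⟩, ⟨⟨0, IsNilpotent.zero⟩⟩⟩
  have key : ∀ k ∈ Finset.range n, (∏ i ∈ Finset.range (k + 1), (q ^ n - q ^ i)) *
      (q ^ ((k + 1) * (n - (k + 1))) * N F (n - (k + 1))) =
      (∏ i ∈ Finset.range (k + 1), (q ^ n - q ^ i)) * q ^ ((n - (k + 1)) * (n - 1)) := by
    intro k hk
    rw [Finset.mem_range] at hk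
    rw [ih _ (by omega), ← pow_add]
    congr 2
    obtain ⟨r, hr⟩ : ∃ r, n = k + 1 + r := ⟨n - k - 1, by omega⟩
    rw [hr, show k + 1 + r - (k + 1) = r by omega, show k + 1 + r - 1 = k + r by omega]
    rcases r with _ | r
    · simp
    · rw [show r + 1 - 1 = r by omega]; ring
  rw [Finset.sum_congr rfl key] at hsum
  have ht := telescope hq n n le_rfl
  have ht2 : (∑ k ∈ Finset.range (n + 1), (∏ i ∈ Finset.range k, (q ^ n - q ^ i)) * q ^ ((n - k) * (n - 1))) =
      q ^ (n * n) := by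
    rw [Finset.sum_range_succ, Nat.sub_self, zero_mul, pow_zero, mul_one]
    simpa using ht
  rw [Finset.sum_range_succ'] at ht2
  simp only [Finset.range_zero, Finset.prod_empty, Nat.sub_zero, one_mul] at ht2
  set S := ∑ k ∈ Finset.range n, (∏ i ∈ Finset.range (k + 1), (q ^ n - q ^ i)) * q ^ ((n - (k + 1)) * (n - 1))
  -- q^n N = S + N, q^(n n) = S + q^(n (n-1))
  have hqn : 1 < q ^ n := Nat.one_lt_pow hn0.ne' Fintype.one_lt_card
  obtain ⟨c, hc⟩ : ∃ c, q ^ n = c + 1 := ⟨q ^ n - 1, by omega⟩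
  have h3 : q ^ (n * n) = (c + 1) * q ^ (n * (n - 1)) := by
    rw [← hc, ← pow_add]
    congr 1
    obtain ⟨m, rfl⟩ : ∃ m, n = m + 1 := ⟨n - 1, by omega⟩
    rw [Nat.add_sub_cancel]; ring
  refine Nat.eq_of_mul_eq_mul_left (show 0 < c by omega) ?_
  rw [hc, add_mul, one_mul] at hsum
  rw [h3, add_mul, one_mul] at ht2
  omega

end Cfsg.Agent.LinAlg.NilCount
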