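import Mathlib

/-!
# Regular nilpotent matrices
-/

set_option autoImplicit false

open Matrix

namespace Cfsg.Agent.LinAlg.RegNil

variable {F : Type*} [Field F] {m : ℕ}

/-- nilpotent of maximal rank -/
structure IsRegNil (N : Matrix (Fin (m + 1)) (Fin (m + 1)) F) : Prop where
  pow_eq : N ^ (m + 1) = 0
  rank_eq : N.rank = m

/-- kernels of powers of a regular nilpotent grow slowly -/
theorem finrank_ker_pow_le {N : Matrix (Fin (m + 1)) (Fin (m + 1)) F} (h : IsRegNil N) :
    ∀ k, Module.finrank F (LinearMap.ker (N.mulVecLin ^ k)) ≤ k := by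
  set f := N.mulVecLin with hf
  have hker : Module.finrank F (LinearMap.ker f) = 1 := by
    have := f.finrank_range_add_finrank_ker
    rw [show Module.finrank F (LinearMap.range f) = m from h.rank_eq, Module.finrank_fintype_fun_eq_card,
      Fintype.card_fin] at this
    omega
  show ∀ k, Module.finrank F (LinearMap.ker (f ^ k)) ≤ k
  intro k
  induction k with
  | zero => simp [Module.End.one_eq_id, LinearMap.ker_id]
  | succ k ih =>
    let g : LinearMap.ker (f ^ (k + 1)) →ₗ[F] LinearMap.ker (f ^ k) :=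
      (f.comp (LinearMap.ker (f ^ (k + 1))).subtype).codRestrict _ fun x => by
        rw [LinearMap.mem_ker]
        show (f ^ k) (f x.1) = 0
        rw [← Module.End.mul_apply, ← pow_succ]
        exact x.2
    have h1 := g.finrank_range_add_finrank_ker
    have h2 : Module.finrank F (LinearMap.range g) ≤ Module.finrank F (LinearMap.ker (f ^ k)) :=
      Submodule.finrank_le _
    have h3 : Module.finrank F (LinearMap.ker g) ≤ Module.finrank F (LinearMap.ker f) := by
      let ι : LinearMap.ker g →ₗ[F] LinearMap.ker f :=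
        ((LinearMap.ker (f ^ (k + 1))).subtype.comp (LinearMap.ker g).subtype).codRestrict _ fun x => by
          have := x.2
          rw [LinearMap.mem_ker] at this ⊢
          exact congrArg Subtype.val this
      exact LinearMap.finrank_le_finrank_of_injective (f := ι) fun x y e =>
        Subtype.ext (Subtype.ext (by simpa [ι] using congrArg Subtype.val e))
    omega

theorem pow_ne_zero_of_isRegNil {N : Matrix (Fin (m + 1)) (Fin (m + 1)) F} (h : IsRegNil N) : N ^ m ≠ 0 := by
  set f := N.mulVecLin with hf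
  have key := finrank_ker_pow_le h
  rw [← hf] at key
  intro h0
  have hfm : f ^ m = 0 := by
    have : ∀ k, f ^ k = (N ^ k).mulVecLin := by
      intro k
      induction k with
      | zero => simp [Module.End.one_eq_id]
      | succ k ih => rw [pow_succ, ih, hf, pow_succ, Matrix.mulVecLin_mul]; rfl
    rw [this, h0, Matrix.mulVecLin_zero]
  have := key m
  rw [hfm, LinearMap.ker_zero, finrank_top, Module.finrank_fintype_fun_eq_card, Fintype.card_fin] at this
  omega

theorem exists_cyclic_vec {N : Matrix (Fin (m + 1)) (Fin (m + 1)) F} (h : IsRegNil N) :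
    ∃ v, (N ^ m) *ᵥ v ≠ 0 := by
  by_contra hall
  push Not at hall
  exact pow_ne_zero_of_isRegNil h (Matrix.toLin'.injective (LinearMap.ext fun v => by rw [Matrix.toLin'_apply, hall v]; simp))

/-- the matrix with columns `N ^ i v` -/
noncomputable def cols (N : Matrix (Fin (m + 1)) (Fin (m + 1)) F) (v : Fin (m + 1) → F) :
    Matrix (Fin (m + 1)) (Fin (m + 1)) F :=
  Matrix.of fun k i => ((N ^ (i : ℕ)) *ᵥ v) k

/-- the polynomial in `N` with the given coefficients -/
noncomputable def polN (N : Matrix (Fin (m + 1)) (Fin (m + 1)) F) (c : Fin (m + 1) → F) :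
    Matrix (Fin (m + 1)) (Fin (m + 1)) F :=
  ∑ i : Fin (m + 1), c i • N ^ (i : ℕ)

theorem polN_mulVec (N : Matrix (Fin (m + 1)) (Fin (m + 1)) F) (c v : Fin (m + 1) → F) :
    polN N c *ᵥ v = cols N v *ᵥ c := by
  funext k
  simp only [polN, Matrix.sum_mulVec, Finset.sum_apply, Matrix.smul_mulVec, Pi.smul_apply, smul_eq_mul]
  simp only [Matrix.mulVec, dotProduct, cols, Matrix.of_apply]
  exact Finset.sum_congr rfl fun i _ => mul_comm _ _

theorem polN_split (N : Matrix (Fin (m + 1)) (Fin (m + 1)) F) (c : Fin (m + 1) → F) :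
    polN N c = c 0 • 1 + N * ∑ i : Fin m, c i.succ • N ^ (i : ℕ) := by
  rw [polN, Fin.sum_univ_succ]
  simp only [Fin.val_zero, pow_zero, Fin.val_succ, Finset.mul_sum, mul_smul_comm, ← pow_succ']

theorem commute_polN (N : Matrix (Fin (m + 1)) (Fin (m + 1)) F) (c : Fin (m + 1) → F) :
    Commute N (polN N c) :=
  Commute.sum_right _ _ _ fun i _ => (Commute.self_pow N i).smul_right _

theorem cols_det_ne_zero {N : Matrix (Fin (m + 1)) (Fin (m + 1)) F} (h : IsRegNil N) {v : Fin (m + 1) → F}
    (hv : (N ^ m) *ᵥ v ≠ 0) : (cols N v).det ≠ 0 := by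
  intro hd
  obtain ⟨c, hc, hc0⟩ := Matrix.exists_mulVec_eq_zero_iff.mpr hd
  rw [← polN_mulVec] at hc0
  apply hc
  by_contra hne
  have hex : ∃ i : ℕ, ∃ hi : i < m + 1, c ⟨i, hi⟩ ≠ 0 := by
    obtain ⟨i, hi⟩ := Function.ne_iff.mp hne
    exact ⟨i, i.2, by simpa using hi⟩
  classical
  obtain ⟨hi0, hci⟩ := Nat.find_spec hex
  have h1 : (N ^ (m - Nat.find hex)) *ᵥ (polN N c *ᵥ v) = c ⟨Nat.find hex, hi0⟩ • ((N ^ m) *ᵥ v) := by
    rw [Matrix.mulVec_mulVec, polN, Finset.mul_sum, Finset.sum_eq_single ⟨Nat.find hex, hi0⟩]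
    · rw [mul_smul_comm, ← pow_add, Matrix.smul_mulVec]
      congr 3
      simp only
      omega
    · intro j _ hj
      rcases Nat.lt_or_ge (j : ℕ) (Nat.find hex) with hlt | hge
      · have := Nat.find_min hex hlt
        push Not at this
        rw [this j.2, zero_smul, mul_zero]
      · have hne' : (j : ℕ) ≠ Nat.find hex := fun e => hj (Fin.ext e)
        rw [mul_smul_comm, ← pow_add, pow_eq_zero_of_le (show m + 1 ≤ m - Nat.find hex + j by omega) h.pow_eq,
          smul_zero]
    · intro hnm; exact absurd (Finset.mem_univ _) hnm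
  rw [hc0, Matrix.mulVec_zero] at h1
  rcases smul_eq_zero.mp h1.symm with hz | hz
  · exact hci hz
  · exact hv hz

theorem polN_injective {N : Matrix (Fin (m + 1)) (Fin (m + 1)) F} (h : IsRegNil N) :
    Function.Injective (polN N) := by
  obtain ⟨v, hv⟩ := exists_cyclic_vec h
  intro c d hcd
  have hu : IsUnit (cols N v) :=
    (Matrix.isUnit_iff_isUnit_det _).mpr (isUnit_iff_ne_zero.mpr (cols_det_ne_zero h hv))
  exact Matrix.mulVec_injective_of_isUnit hu (by rw [← polN_mulVec, ← polN_mulVec, hcd])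

theorem exists_polN_eq {N A : Matrix (Fin (m + 1)) (Fin (m + 1)) F} (h : IsRegNil N) (hA : Commute N A) :
    ∃ c, polN N c = A := by
  obtain ⟨v, hv⟩ := exists_cyclic_vec h
  have hd : IsUnit (cols N v).det := isUnit_iff_ne_zero.mpr (cols_det_ne_zero h hv)
  have hu : IsUnit (cols N v) := (Matrix.isUnit_iff_isUnit_det _).mpr hd
  refine ⟨(cols N v)⁻¹ *ᵥ (A *ᵥ v), ?_⟩
  set c := (cols N v)⁻¹ *ᵥ (A *ᵥ v) with hc
  have hcv : polN N c *ᵥ v = A *ᵥ v := by
    rw [polN_mulVec, hc, Matrix.mulVec_mulVec, Matrix.mul_nonsing_inv _ hd, Matrix.one_mulVec]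
  refine hu.mul_left_injective ?_
  show polN N c * cols N v = A * cols N v
  ext k i
  have : ∀ B : Matrix (Fin (m + 1)) (Fin (m + 1)) F, (B * cols N v) k i = (B *ᵥ ((N ^ (i : ℕ)) *ᵥ v)) k :=
    fun B => rfl
  rw [this, this, Matrix.mulVec_mulVec, Matrix.mulVec_mulVec, ((commute_polN N c).pow_left i).eq.symm,
    (hA.pow_left i).eq.symm, ← Matrix.mulVec_mulVec, ← Matrix.mulVec_mulVec, hcv]

theorem det_scalar_add_nilpotent {ι : Type*} [Fintype ι] [DecidableEq ι] (a : F) {M : Matrix ι ι F}
    (hM : IsNilpotent M) : (a • (1 : Matrix ι ι F) + M).det = a ^ Fintype.card ι := by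
  have hcp : (-M).charpoly = Polynomial.X ^ Fintype.card ι :=
    sub_eq_zero.mp (Matrix.isNilpotent_charpoly_sub_pow_of_isNilpotent hM.neg).eq_zero
  have := Matrix.eval_charpoly (-M) a
  rw [hcp, Polynomial.eval_pow, Polynomial.eval_X, sub_neg_eq_add, Matrix.scalar_apply,
    ← Matrix.smul_one_eq_diagonal] at this
  exact this.symm

theorem det_polN {N : Matrix (Fin (m + 1)) (Fin (m + 1)) F} (h : IsRegNil N) (c : Fin (m + 1) → F) :
    (polN N c).det = c 0 ^ (m + 1) := by
  rw [polN_split, det_scalar_add_nilpotent, Fintype.card_fin]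
  exact Commute.isNilpotent_mul_right (Commute.sum_right _ _ _ fun i _ => (Commute.self_pow N i).smul_right _)
    ⟨m + 1, h.pow_eq⟩

/-- the standard nilpotent Jordan block -/
def shift (F : Type*) [Field F] (m : ℕ) : Matrix (Fin (m + 1)) (Fin (m + 1)) F :=
  (Matrix.diagonal fun i : Fin (m + 1) => if i = Fin.last m then (0 : F) else 1).submatrix
    (finRotate (m + 1)).symm (Equiv.refl _)

theorem shift_apply (j i : Fin (m + 1)) :
    shift F m j i = if (j : ℕ) = i + 1 then 1 else 0 := by
  simp only [shift, Matrix.submatrix_apply, Equiv.refl_apply, Matrix.diagonal_apply]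
  have hij : (finRotate (m + 1)).symm j = i ↔ j = i + 1 := by
    rw [Equiv.symm_apply_eq, finRotate_apply]
  rcases eq_or_ne i (Fin.last m) with hi | hi
  · subst hi
    rw [if_neg (c := (j : ℕ) = _) (by simp; omega)]
    split_ifs with h1 <;> simp_all
  · have hv : ((i + 1 : Fin (m + 1)) : ℕ) = i + 1 := Fin.val_add_one_of_lt (Fin.lt_last_iff_ne_last.mpr hi)
    by_cases hj : (j : ℕ) = i + 1
    · have : (finRotate (m + 1)).symm j = i := hij.mpr (Fin.ext (by rw [hv, hj]))
      rw [if_pos this, if_neg (this ▸ hi), if_pos hj]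
    · rw [if_neg fun e => hj (by rw [hij.mp e, hv]), if_neg hj]

theorem shift_pow_mulVec (k : ℕ) (j : Fin (m + 1)) :
    ((shift F m ^ k) *ᵥ Pi.single 0 1) j = if (j : ℕ) = k then 1 else 0 := by
  induction k generalizing j with
  | zero =>
    rw [pow_zero, Matrix.one_mulVec, Pi.single_apply]
    simp only [Fin.ext_iff, Fin.val_zero]
  | succ k ih =>
    rw [pow_succ', ← Matrix.mulVec_mulVec]
    show ∑ l, shift F m j l * ((shift F m ^ k) *ᵥ Pi.single 0 1) l = _
    simp only [ih, shift_apply]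
    rcases Nat.lt_or_ge k (m + 1) with hk | hk
    · rw [Finset.sum_eq_single ⟨k, hk⟩]
      · simp
      · intro l _ hl
        rw [if_neg (c := (l : ℕ) = k) (fun e => hl (Fin.ext e)), mul_zero]
      · simp
    · rw [Finset.sum_eq_zero fun l _ => by rw [if_neg (c := (l : ℕ) = k) (by omega), mul_zero],
        if_neg (by omega)]

theorem isRegNil_shift : IsRegNil (shift F m) := by
  refine ⟨?_, ?_⟩
  · refine Matrix.ext_iff_mulVec.mpr fun v => ?_
    rw [Matrix.zero_mulVec]
    have h0 : (shift F m ^ (m + 1)) *ᵥ Pi.single 0 (1 : F) = 0 := by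
      funext j
      rw [shift_pow_mulVec, if_neg (by omega)]; rfl
    have hk : ∀ k : Fin (m + 1), Pi.single k (1 : F) = (shift F m ^ (k : ℕ)) *ᵥ Pi.single 0 1 := by
      intro k
      funext j
      rw [shift_pow_mulVec, Pi.single_apply]
      simp [Fin.ext_iff]
    rw [pi_eq_sum_univ' v, Matrix.mulVec_sum]
    refine Finset.sum_eq_zero fun k _ => ?_
    rw [Matrix.mulVec_smul, hk k, Matrix.mulVec_mulVec, ← pow_add, add_comm _ (k : ℕ), pow_add, ← Matrix.mulVec_mulVec,
      h0, Matrix.mulVec_zero, smul_zero]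
  · classical
    rw [shift, Matrix.rank_submatrix, Matrix.rank_diagonal]
    have : Fintype.card {i : Fin (m + 1) // (if i = Fin.last m then (0 : F) else 1) ≠ 0} =
        Fintype.card {i : Fin (m + 1) // ¬ i = Fin.last m} :=
      Fintype.card_congr (Equiv.subtypeEquivRight fun i => by split_ifs <;> simp_all)
    rw [this, Fintype.card_subtype_compl, Fintype.card_subtype_eq, Fintype.card_fin, Nat.add_sub_cancel]

theorem mul_cols {N : Matrix (Fin (m + 1)) (Fin (m + 1)) F} (h : IsRegNil N) (v : Fin (m + 1) → F) :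
    N * cols N v = cols N v * shift F m := by
  ext k i
  rw [show (N * cols N v) k i = (N *ᵥ ((N ^ (i : ℕ)) *ᵥ v)) k from rfl, Matrix.mulVec_mulVec, ← pow_succ',
    Matrix.mul_apply]
  rcases Nat.lt_or_ge ((i : ℕ) + 1) (m + 1) with hi | hi
  · rw [Finset.sum_eq_single ⟨i + 1, hi⟩]
    · simp [shift_apply, cols]
    · intro j _ hj
      rw [shift_apply, if_neg fun e => hj (Fin.ext e), mul_zero]
    · simp
  · rw [Finset.sum_eq_zero fun j _ => by rw [shift_apply, if_neg (by omega), mul_zero],
      show (i : ℕ) + 1 = m + 1 by omega, h.pow_eq, Matrix.zero_mulVec]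
    rfl

/-- every regular nilpotent matrix is conjugate to the standard one -/
theorem exists_conj_shift {N : Matrix (Fin (m + 1)) (Fin (m + 1)) F} (h : IsRegNil N) :
    ∃ P : GL (Fin (m + 1)) F, N * (P : Matrix (Fin (m + 1)) (Fin (m + 1)) F) = P * shift F m := by
  obtain ⟨v, hv⟩ := exists_cyclic_vec h
  exact ⟨Matrix.GeneralLinearGroup.mkOfDetNeZero _ (cols_det_ne_zero h hv), mul_cols h v⟩

theorem conj {N : Matrix (Fin (m + 1)) (Fin (m + 1)) F} (h : IsRegNil N) (g : GL (Fin (m + 1)) F) :
    IsRegNil ((g : Matrix (Fin (m + 1)) (Fin (m + 1)) F) * N * ((g⁻¹ : GL (Fin (m + 1)) F) :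
      Matrix (Fin (m + 1)) (Fin (m + 1)) F)) := by
  refine ⟨?_, ?_⟩
  · rw [Units.conj_pow g, h.pow_eq, mul_zero, zero_mul]
  · rw [Matrix.rank_mul_eq_left_of_isUnit_det _ _ ((Matrix.isUnit_iff_isUnit_det _).mp (g⁻¹).isUnit),
      Matrix.rank_mul_eq_right_of_isUnit_det _ _ ((Matrix.isUnit_iff_isUnit_det _).mp g.isUnit), h.rank_eq]

/-- the centraliser of a unipotent element in terms of the commutant of its nilpotent part -/
theorem commute_sub_one_iff {A U : Matrix (Fin (m + 1)) (Fin (m + 1)) F} :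
    Commute (U - 1) A ↔ Commute U A := by
  constructor
  · intro h
    simpa using h.add_left (Commute.one_left A)
  · intro h
    exact h.sub_left (Commute.one_left A)

end Cfsg.Agent.LinAlg.RegNil
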