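import Mathlib
import Cfsg.Agent.Lib.LinAlg.SemisimpleClasses

/-!
# Classes of elements killed by a given separable polynomial
-/

set_option autoImplicit false

open Polynomial UniqueFactorizationMonoid

universe u

namespace Cfsg.Agent.LinAlg.SSClass

variable {F : Type u} [Field F]

theorem factor_dvd_killer {V : Type*} [AddCommGroup V] [Module F V] [FiniteDimensional F V]
    {x : Module.End F V} {f g : F[X]} (hf : aeval x f = 0) (hgi : Irreducible g) (hgd : g ∣ x.charpoly) :
    g ∣ f := by
  obtain ⟨v, hv0, hv⟩ := exists_vec_of_dvd_charpoly hgi hgd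
  by_contra hnd
  obtain ⟨a, b, hab⟩ := (hgi.coprime_iff_not_dvd).mpr hnd
  apply hv0
  have h1 := congrArg (fun h => aeval x h v) hab
  simp only [map_add, map_mul, map_one, Module.End.one_apply, LinearMap.add_apply, Module.End.mul_apply, hv, hf,
    map_zero, LinearMap.zero_apply, add_zero] at h1
  exact h1.symm

theorem sqfree_dvd_of_factors {f : F[X]} : ∀ {m : F[X]}, Squarefree m →
    (∀ g : F[X], Irreducible g → g ∣ m → g ∣ f) → m ∣ f := by
  intro m
  induction m using UniqueFactorizationMonoid.induction_on_prime with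
  | h₁ => intro h _; exact absurd h not_squarefree_zero
  | h₂ x hx => intro _ _; exact hx.dvd
  | h₃ a p _ hp ih =>
    intro hsq hall
    refine IsCoprime.mul_dvd ?_ (hall p hp.irreducible (dvd_mul_right p a))
      (ih hsq.of_mul_right fun g hg hga => hall g hg (hga.trans (dvd_mul_left a p)))
    refine hp.irreducible.coprime_iff_not_dvd.mpr fun hpa => ?_
    exact hp.not_isUnit (hsq p (mul_dvd_mul_left p hpa))

/-- a semisimple element is killed by any polynomial divisible by all factors of its characteristic polynomial -/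
theorem aeval_eq_zero_of_factors [Finite F] {n : ℕ} (p : ℕ) [Fact p.Prime] [CharP F p] {x : GL (Fin n) F}
    (hx : (orderOf x).Coprime p) {f : F[X]}
    (hall : ∀ g : F[X], g.Monic → Irreducible g → g ∣ (x : Matrix (Fin n) (Fin n) F).charpoly → g ∣ f) :
    aeval (x : Matrix (Fin n) (Fin n) F) f = 0 := by
  classical
  set M := (x : Matrix (Fin n) (Fin n) F)
  obtain ⟨k, hk, hxk⟩ := exists_squarefree_killer p hx (M := M)
    (by rw [← Units.val_pow_eq_pow_val, pow_orderOf_eq_one, Units.val_one])
  have hk' : aeval M k = 0 := by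
    rw [aeval_algHom_apply] at hxk
    exact Matrix.toLinAlgEquiv'.injective (hxk.trans (map_zero _).symm)
  refine aeval_eq_zero_of_dvd_aeval_eq_zero (sqfree_dvd_of_factors (hk.squarefree_of_dvd (minpoly.dvd F M hk'))
    fun g hg hgd => ?_) (minpoly.aeval F M)
  exact (normalize_dvd_iff).mp (hall (normalize g) (monic_normalize hg.ne_zero)
    ((normalize_associated g).irreducible_iff.mpr hg)
    (normalize_dvd_iff.mpr (hgd.trans (Matrix.minpoly_dvd_charpoly M))))

/-- monic irreducible polynomials with a monic product determine their multiset -/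
theorem factors_prod [DecidableEq F] {s : Multiset F[X]} (hs : ∀ g ∈ s, g.Monic ∧ Irreducible g) :
    normalizedFactors s.prod = s := by
  rw [normalizedFactors_prod_eq s fun g hg => (hs g hg).2]
  conv_rhs => rw [← Multiset.map_id s]
  exact Multiset.map_congr rfl fun g hg => (hs g hg).1.normalize_eq_self

theorem prod_factors [DecidableEq F] {f : F[X]} (hf : f.Monic) :
    (normalizedFactors f).prod = f ∧ ∀ g ∈ normalizedFactors f, g.Monic ∧ Irreducible g ∧ g ∣ f := by
  refine ⟨?_, fun g hg => ⟨?_, irreducible_of_normalized_factor g hg, dvd_of_mem_normalizedFactors hg⟩⟩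
  · rw [prod_normalizedFactors_eq hf.ne_zero, hf.normalize_eq_self]
  · rw [← normalize_normalized_factor g hg]
    exact monic_normalize (irreducible_of_normalized_factor g hg).ne_zero

theorem natDegree_multiset_prod {s : Multiset F[X]} (hs : ∀ g ∈ s, g.Monic) :
    s.prod.Monic ∧ s.prod.natDegree = (s.map natDegree).sum :=
  ⟨monic_multiset_prod_of_monic s id (fun g hg => hs g hg) |> fun h => by simpa using h,
    natDegree_multiset_prod_of_monic s hs⟩

theorem coeff_zero_prod_ne {s : Multiset F[X]} (hs : ∀ g ∈ s, g.coeff 0 ≠ 0) : s.prod.coeff 0 ≠ 0 := by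
  induction s using Multiset.induction with
  | empty => simp
  | cons a s ih =>
    rw [Multiset.prod_cons, mul_coeff_zero]
    exact mul_ne_zero (hs a (Multiset.mem_cons_self a s)) (ih fun g hg => hs g (Multiset.mem_cons_of_mem hg))

end Cfsg.Agent.LinAlg.SSClass
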