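import Mathlib
import Cfsg.Agent.Lib.LinAlg.SemisimpleClasses

open Matrix Polynomial Finset

namespace Cfsg.Lib.SympCompanion

variable {F : Type*} [Field F]

noncomputable def s (n : ℕ) (a : ℕ → F) : ℕ → F
  | d =>
    if d < n then 0 else if d = n then 1 else
      -∑ k : Fin (2 * n), a k * (if h : 2 * n ≤ k.1 + d then (if h' : k.1 + d - 2 * n < d then s n a (k.1 + d - 2 * n) else 0)
        else (if h' : 2 * n - (k.1 + d) < d then -s n a (2 * n - (k.1 + d)) else 0))
termination_by d => d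
decreasing_by all_goals assumption

noncomputable def Z (n : ℕ) (a : ℕ → F) (z : ℤ) : F := if 0 ≤ z then s n a z.toNat else -s n a (-z).toNat

theorem Z_small {n : ℕ} {a : ℕ → F} {z : ℤ} (h1 : -(n:ℤ) < z) (h2 : z < n) : Z n a z = 0 := by
  unfold Z
  split_ifs <;> rw [s, if_pos (by omega)]
  exact neg_zero

theorem Z_n {n : ℕ} {a : ℕ → F} : Z n a n = 1 := by
  rw [Z, if_pos (Int.natCast_nonneg n), Int.toNat_natCast, s, if_neg (lt_irrefl n), if_pos rfl]

theorem Z_neg {n : ℕ} (hn : 0 < n) {a : ℕ → F} (z : ℤ) : Z n a (-z) = -Z n a z := by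
  rcases lt_trichotomy z 0 with h | rfl | h
  · rw [Z, if_pos (by omega), Z, if_neg (by omega), neg_neg]
  · rw [neg_zero, Z_small (by omega) (by omega), neg_zero]
  · rw [Z, if_neg (by omega), Z, if_pos (by omega), neg_neg]

theorem rec_high {n : ℕ} (hn : 0 < n) {a : ℕ → F} (h0 : a 0 = 1) (ht : a (2 * n) = 1) {j : ℕ} (h1 : n ≤ j) (h2 : j < 2 * n) :
    ∑ k ∈ range (2 * n + 1), a k * Z n a ((k : ℤ) + j - 2 * n) = 0 := by
  rw [sum_range_succ, ht, one_mul, show ((2 * n : ℕ) : ℤ) + j - 2 * n = j by omega]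
  rcases h1.eq_or_lt with rfl | h1
  · rw [sum_eq_single 0, h0, Z_n, one_mul, show ((0 : ℕ) : ℤ) + n - 2 * n = -(n : ℤ) by omega, Z_neg hn, Z_n, neg_add_cancel]
    · intro k hk hk0
      rw [mem_range] at hk
      rw [Z_small (by omega) (by omega), mul_zero]
    · intro h; simp at h; omega
  · have e : Z n a (j : ℤ) = -∑ k ∈ range (2 * n), a k * Z n a ((k : ℤ) + j - 2 * n) := by
      rw [Z, if_pos (Int.natCast_nonneg j), Int.toNat_natCast, s, if_neg (by omega), if_neg (by omega), ← Fin.sum_univ_eq_sum_range]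
      refine congrArg Neg.neg (Finset.sum_congr rfl fun k _ => congrArg (a k * ·) ?_)
      split_ifs with h h' h'
      · rw [Z, if_pos (by omega)]; congr 1; omega
      · omega
      · rw [Z, if_neg (by omega)]; congr 2; omega
      · omega
    rw [e]; exact add_neg_cancel _

theorem rec_all {n : ℕ} (hn : 0 < n) {a : ℕ → F} (hsym : ∀ k ≤ 2 * n, a (2 * n - k) = a k) (h0 : a 0 = 1) {j : ℕ}
    (h1 : 1 ≤ j) (h2 : j < 2 * n) :
    ∑ k ∈ range (2 * n + 1), a k * Z n a ((k : ℤ) + j - 2 * n) = 0 := by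
  have ht : a (2 * n) = 1 := by rw [← h0]; simpa using hsym 0 (by omega)
  rcases Nat.lt_or_ge j n with h | h
  · have := rec_high hn h0 ht (j := 2 * n - j) (by omega) (by omega)
    rw [← sum_range_reflect] at this
    rw [← neg_eq_zero, ← this, ← Finset.sum_neg_distrib]
    refine Finset.sum_congr rfl fun k hk => ?_
    rw [mem_range] at hk
    rw [show 2 * n + 1 - 1 - k = 2 * n - k by omega, hsym k (by omega), ← mul_neg, ← Z_neg hn]
    congr 2; omega
  · exact rec_high hn h0 ht h h2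

def comp (n : ℕ) (a : ℕ → F) : Matrix (Fin (2 * n)) (Fin (2 * n)) F :=
  of fun i j => if (j : ℕ) + 1 = 2 * n then -a i else if (i : ℕ) = j + 1 then 1 else 0

noncomputable def form (n : ℕ) (a : ℕ → F) : Matrix (Fin (2 * n)) (Fin (2 * n)) F :=
  of fun i j => Z n a ((j : ℤ) - i)

theorem comp_invariant {n : ℕ} (hn : 0 < n) {a : ℕ → F} (hsym : ∀ k ≤ 2 * n, a (2 * n - k) = a k) (h0 : a 0 = 1) :
    (comp n a)ᵀ * form n a * comp n a = form n a := by
  have ht : a (2 * n) = 1 := by rw [← h0]; simpa using hsym 0 (by omega)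
  have col : ∀ (g : ℕ → F) (j : Fin (2 * n)), ∑ t : Fin (2 * n), comp n a t j * g t =
      if (j : ℕ) + 1 = 2 * n then -∑ t ∈ range (2 * n), a t * g t else g (j + 1) := by
    intro g j
    simp only [comp, of_apply]
    split_ifs with h
    · simp only [neg_mul, sum_neg_distrib]
      rw [Fin.sum_univ_eq_sum_range (fun t => a t * g t)]
    · rw [Finset.sum_eq_single (⟨j + 1, by omega⟩ : Fin (2 * n))]
      · simp
      · intro b _ hb
        rw [if_neg (fun e => hb (Fin.ext e)), zero_mul]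
      · simp
  have A : ∀ r : ℕ, 1 ≤ r → r < 2 * n → ∑ t ∈ range (2 * n), a t * Z n a ((t : ℤ) - r) = -Z n a (2 * n - r) := by
    intro r hr hr'
    have := rec_all hn hsym h0 (j := 2 * n - r) (by omega) (by omega)
    rw [sum_range_succ, ht, one_mul, add_eq_zero_iff_eq_neg] at this
    rw [show (2 * (n:ℤ) - r) = ((2 * n : ℕ) : ℤ) + ((2 * n - r : ℕ) : ℤ) - 2 * n by omega, ← this]
    refine Finset.sum_congr rfl fun k _ => ?_
    congr 2; omega
  ext i j
  have e : ((comp n a)ᵀ * form n a * comp n a) i j =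
      ∑ r : Fin (2 * n), comp n a r i * ∑ t : Fin (2 * n), comp n a t j * Z n a ((t : ℕ) - (r : ℕ) : ℤ) := by
    simp only [Matrix.mul_apply, transpose_apply, Finset.sum_mul, Finset.mul_sum]
    rw [Finset.sum_comm]
    refine Finset.sum_congr rfl fun r _ => Finset.sum_congr rfl fun t _ => ?_
    simp [form]; ring
  rw [e]
  simp_rw [fun r : Fin (2 * n) => col (fun t => Z n a ((t : ℤ) - (r : ℕ))) j]
  rw [col (fun r => if (j : ℕ) + 1 = 2 * n then -∑ t ∈ range (2 * n), a t * Z n a ((t : ℤ) - r)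
      else Z n a (((j + 1 : ℕ) : ℤ) - r)) i]
  simp only [form, of_apply]
  have hi := i.2
  have hj := j.2
  split_ifs with h h'
  · -- both last
    rw [show ((j : ℤ) - (i : ℕ)) = 0 by omega, Z_small (by omega) (by omega), neg_eq_zero]
    obtain ⟨m, hm⟩ : ∃ m, 2 * n = m + 1 := ⟨2 * n - 1, by omega⟩
    set R0 := ∑ t ∈ range (2 * n), a t * Z n a ((t : ℤ) - (0 : ℕ)) with hR0
    rw [hm, sum_range_succ', ← hm, h0, one_mul, ← hR0]
    have : ∑ k ∈ range m, a (k + 1) * -∑ t ∈ range (2 * n), a t * Z n a ((t : ℤ) - (k + 1 : ℕ)) = R0 := by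
      rw [hR0, show range (2 * n) = range (m + 1) by rw [hm], sum_range_succ' _ m, ← show range (2 * n) = range (m + 1) by rw [hm]]
      rw [Z_small (z := ((0 : ℕ) : ℤ) - (0 : ℕ)) (by omega) (by omega), mul_zero, add_zero, ← sum_range_reflect (fun k => a (k + 1) * Z n a (((k + 1 : ℕ) : ℤ) - (0 : ℕ)))]
      refine Finset.sum_congr rfl fun k hk => ?_
      rw [mem_range] at hk
      rw [A (k + 1) (by omega) (by omega), neg_neg, show m - 1 - k + 1 = 2 * n - (k + 1) by omega, hsym (k + 1) (by omega)]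
      congr 2; omega
    rw [this, ← sub_eq_add_neg, sub_self]
  · -- i last
    have hA := A (j + 1) (by omega) (by omega)
    rw [show ∑ t ∈ range (2 * n), a t * Z n a (((j + 1 : ℕ) : ℤ) - t) = -∑ t ∈ range (2 * n), a t * Z n a ((t : ℤ) - (j + 1 : ℕ)) by
      rw [← Finset.sum_neg_distrib]; refine Finset.sum_congr rfl fun t _ => ?_
      rw [← mul_neg, ← Z_neg hn, neg_sub], hA, neg_neg, ← Z_neg hn]
    congr 1; omega
  · rw [A (i + 1) (by omega) (by omega), neg_neg]; congr 1; omega
  · congr 1; omega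

theorem comp_charpoly {n : ℕ} (f : F[X]) (hf : f.Monic) (hd : f.natDegree = 2 * n) :
    (comp n fun k => f.coeff k).charpoly = f := by
  let pb := AdjoinRoot.powerBasis hf.ne_zero
  have h := charpoly_leftMulMatrix pb
  rw [PowerBasis.leftMulMatrix, pb.minpolyGen_eq, AdjoinRoot.minpoly_powerBasis_gen_of_monic hf] at h
  have hdim : pb.dim = 2 * n := hd
  refine Eq.trans ?_ h
  rw [← Matrix.charpoly_reindex (finCongr hdim) (of fun i j => _)]
  congr 1
  ext i j
  simp [comp, hdim]

theorem exists_symplectic {n : ℕ} (hn : 0 < n) (f : F[X]) (hf : f.Monic) (hd : f.natDegree = 2 * n)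
    (hsym : ∀ k ≤ 2 * n, f.coeff (2 * n - k) = f.coeff k) :
    ∃ A : Matrix.symplecticGroup (Fin n) F, (A : Matrix (Fin n ⊕ Fin n) (Fin n ⊕ Fin n) F).charpoly = f := by
  classical
  let a : ℕ → F := fun k => f.coeff k
  have h0 : a 0 = 1 := by
    show f.coeff 0 = 1
    rw [← hsym 0 (Nat.zero_le _), Nat.sub_zero, ← hd]; exact hf.coeff_natDegree
  let e : Fin (2 * n) ≃ Fin n ⊕ Fin n := ((finCongr (two_mul n)).trans finSumFinEquiv.symm)
  let U : Matrix (Fin n) (Fin n) F := of fun i j => Z n a ((n : ℤ) + j - i)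
  have hU : U.det = 1 := by
    rw [Matrix.det_of_isUpperTriangular ?_]
    · exact Finset.prod_eq_one fun i _ => by simp [U, Z_n]
    · intro i j hij
      simp only [id] at hij
      show Z n a ((n : ℤ) + j - i) = 0
      exact Z_small (by omega) (by omega)
  have hS : reindexAlgEquiv F F e (form n a) = fromBlocks 0 U (-Uᵀ) 0 := by
    ext i j
    rcases i with i | i <;> rcases j with j | j <;>
      simp only [coe_reindexAlgEquiv, reindex_apply, submatrix_apply, form, of_apply, fromBlocks_apply₁₁, fromBlocks_apply₁₂,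
        fromBlocks_apply₂₁, fromBlocks_apply₂₂, Matrix.zero_apply, Matrix.neg_apply, transpose_apply, U, e]
    · exact Z_small (by simp; omega) (by simp; omega)
    · first | (congr 1; done) | (congr 1; simp; done) | (congr 1; simp; omega)
    · rw [← Z_neg hn]; first | (congr 1; done) | (congr 1; simp; done) | (congr 1; simp; omega)
    · exact Z_small (by simp; omega) (by simp; omega)
  have hUi : U * U⁻¹ = 1 := Matrix.mul_nonsing_inv U (by rw [hU]; exact isUnit_one)
  have hUi' : U⁻¹ * U = 1 := Matrix.nonsing_inv_mul U (by rw [hU]; exact isUnit_one)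
  let P : (Matrix (Fin n ⊕ Fin n) (Fin n ⊕ Fin n) F)ˣ :=
    ⟨fromBlocks 1 0 0 (-U⁻¹), fromBlocks 1 0 0 (-U), by simp [fromBlocks_multiply, hUi'], by simp [fromBlocks_multiply, hUi]⟩
  set S := reindexAlgEquiv F F e (form n a) with hSdef
  set C := reindexAlgEquiv F F e (comp n a) with hCdef
  have hPS : P.valᵀ * S * P.val = Matrix.J (Fin n) F := by
    rw [hS]
    show (fromBlocks 1 0 0 (-U⁻¹))ᵀ * fromBlocks 0 U (-Uᵀ) 0 * fromBlocks 1 0 0 (-U⁻¹) = _
    simp [fromBlocks_transpose, fromBlocks_multiply, Matrix.J, hUi, ← transpose_mul]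
  have hC : Cᵀ * S * C = S := by
    have h := congrArg (reindexAlgEquiv F F e) (comp_invariant hn (a := a) hsym h0)
    rw [map_mul, map_mul] at h
    rw [hCdef, hSdef]
    refine (congrArg (· * _ * _) ?_).trans h
    simp [transpose_reindex]
  refine ⟨⟨P.inv * C * P.val, SymplecticGroup.mem_iff'.2 ?_⟩, ?_⟩
  · have h1 : P.val * (P.inv * C * P.val) = C * P.val := by rw [← mul_assoc, ← mul_assoc, P.val_inv, one_mul]
    calc (P.inv * C * P.val)ᵀ * Matrix.J (Fin n) F * (P.inv * C * P.val)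
        = (P.val * (P.inv * C * P.val))ᵀ * S * (P.val * (P.inv * C * P.val)) := by
          rw [← hPS]; simp only [transpose_mul, mul_assoc]
      _ = (C * P.val)ᵀ * S * (C * P.val) := by rw [h1]
      _ = P.valᵀ * (Cᵀ * S * C) * P.val := by simp only [transpose_mul, mul_assoc]
      _ = Matrix.J (Fin n) F := by rw [hC, hPS]
  · show (P.inv * C * P.val).charpoly = f
    rw [Matrix.charpoly_mul_comm, ← mul_assoc, P.val_inv, one_mul, hCdef, coe_reindexAlgEquiv, charpoly_reindex]
    exact comp_charpoly f hf hd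

end Cfsg.Lib.SympCompanion
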