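import Mathlib
import Cfsg.Agent.Lib.Classical.PSpAut.Basis
import Cfsg.Agent.Lib.LinAlg.HermitianNorm

/-! Semisimple elements of symplectic groups conjugate in `GL` are conjugate in `Sp`. -/

set_option autoImplicit false

open Matrix

namespace Cfsg.Lib.SympSS

variable {F : Type*} [Field F] {m : ℕ}

local notation "Mat" => Matrix (Fin m ⊕ Fin m) (Fin m ⊕ Fin m) F
local notation "JJ" => Matrix.J (Fin m) F

/-- The adjoint for the symplectic form. -/
def ad (X : Matrix (Fin m ⊕ Fin m) (Fin m ⊕ Fin m) F) : Matrix (Fin m ⊕ Fin m) (Fin m ⊕ Fin m) F := -(JJ * Xᵀ * JJ)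

theorem J_sq : (JJ * JJ : Mat) = -1 := Matrix.J_squared _ _

theorem ad_mul (X Y : Mat) : ad (X * Y) = ad Y * ad X := by
  simp only [ad, transpose_mul, neg_mul, mul_neg, neg_neg]
  calc -(JJ * (Yᵀ * Xᵀ) * JJ) = JJ * Yᵀ * (JJ * JJ) * Xᵀ * JJ := by rw [J_sq]; simp [mul_assoc]
    _ = _ := by simp only [mul_assoc]

theorem ad_one : ad (1 : Mat) = 1 := by
  rw [ad, transpose_one, mul_one, J_sq, neg_neg]

theorem ad_zero : ad (0 : Mat) = 0 := by simp [ad]

theorem ad_add (X Y : Mat) : ad (X + Y) = ad X + ad Y := by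
  simp only [ad, transpose_add, mul_add, add_mul, neg_add]

theorem ad_neg (X : Mat) : ad (-X) = -ad X := by simp [ad]

theorem ad_sub (X Y : Mat) : ad (X - Y) = ad X - ad Y := by rw [sub_eq_add_neg, ad_add, ad_neg, ← sub_eq_add_neg]

theorem ad_smul (c : F) (X : Mat) : ad (c • X) = c • ad X := by simp [ad]

theorem ad_ad (X : Mat) : ad (ad X) = X := by
  simp only [ad, transpose_neg, transpose_mul, Matrix.J_transpose, transpose_transpose, neg_mul, mul_neg, neg_neg]
  calc JJ * (JJ * (X * JJ)) * JJ = (JJ * JJ) * X * (JJ * JJ) := by simp only [mul_assoc]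
    _ = X := by rw [J_sq]; simp

theorem form_mul (X Y : Mat) : Xᵀ * (JJ * Y) = JJ * (ad X * Y) := by
  have h : JJ * ad X = Xᵀ * JJ := by
    rw [ad, mul_neg, ← mul_assoc, ← mul_assoc, J_sq]; simp
  rw [← mul_assoc JJ, h, mul_assoc]

/-- The averaging idempotent. -/
theorem exists_avg {h : Mat} {N : ℕ} (hN : (N : F) ≠ 0) (hpow : h ^ N = 1) (had : ad h * h = 1) :
    ∃ e : Mat, e * e = e ∧ ad e = e ∧ h * e = e ∧ e * h = e ∧ (∀ v, h *ᵥ v = v → e *ᵥ v = v) ∧
      ∀ X : Mat, Commute X h → Commute X e := by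
  set S : Mat := ∑ i ∈ Finset.range N, h ^ i with hS
  refine ⟨(N : F)⁻¹ • S, ?_⟩
  have h1 : h * S = S := by
    have := mul_geom_sum h N
    rw [hpow, sub_self, ← hS, sub_mul, one_mul, sub_eq_zero] at this
    exact this
  have h2 : S * h = S := by
    have := geom_sum_mul h N
    rw [hpow, sub_self, ← hS, mul_sub, mul_one, sub_eq_zero] at this
    exact this
  have hfix : ∀ Y : Mat, h * Y = Y → ((N : F)⁻¹ • S) * Y = Y := fun Y hY => by
    have hi : ∀ i, h ^ i * Y = Y := fun i => by
      induction i with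
      | zero => rw [pow_zero, one_mul]
      | succ i ih => rw [pow_succ, mul_assoc, hY, ih]
    rw [smul_mul_assoc, hS, Finset.sum_mul, Finset.sum_congr rfl fun i _ => hi i, Finset.sum_const, Finset.card_range,
      ← Nat.cast_smul_eq_nsmul F, smul_smul, inv_mul_cancel₀ hN, one_smul]
  have he : h * ((N : F)⁻¹ • S) = (N : F)⁻¹ • S := by rw [mul_smul_comm, h1]
  have he' : ((N : F)⁻¹ • S) * h = (N : F)⁻¹ • S := by rw [smul_mul_assoc, h2]
  refine ⟨hfix _ he, ?_, he, he', ?_, fun X hX => (Commute.sum_right _ _ _ fun i _ => hX.pow_right i).smul_right _⟩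
  · set e := (N : F)⁻¹ • S
    have h' : ad e * ad h = ad e := by rw [← ad_mul, he]
    have h3 : h * ad e = ad e := by
      have h4 : ad h * ad e = ad e := by rw [← ad_mul, he']
      conv_lhs => rw [← h4]
      rw [← mul_assoc, mul_eq_one_comm.1 had, one_mul]
    have h5 : e * ad e = ad e := hfix _ h3
    have := congrArg ad h5
    rw [ad_mul, ad_ad, h5] at this
    exact this
  · intro v hv
    have hi : ∀ i, h ^ i *ᵥ v = v := fun i => by
      induction i with
      | zero => rw [pow_zero, one_mulVec]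
      | succ i ih => rw [pow_succ, ← mulVec_mulVec, hv, ih]
    rw [smul_mulVec, hS, sum_mulVec, Finset.sum_congr rfl fun i _ => hi i, Finset.sum_const, Finset.card_range,
      ← Nat.cast_smul_eq_nsmul F, smul_smul, inv_mul_cancel₀ hN, one_smul]

/-- A nondegenerate alternating space is spanned by a symplectic family. -/
theorem expansion {V : Type*} [AddCommGroup V] [Module F V] [FiniteDimensional F V] (B : LinearMap.BilinForm F V)
    (hA : B.IsAlt) (W : Submodule F V) (hW : Cfsg.Lib.Classical.NondegOn B W) {k : ℕ}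
    (hk : Module.finrank F W ≤ 2 * k + 1) (u v : Fin k → V) (hm : ∀ i, u i ∈ W ∧ v i ∈ W)
    (huv : ∀ i j, B (u i) (u j) = 0 ∧ B (v i) (v j) = 0 ∧ B (v i) (u j) = (if i = j then 1 else 0))
    (w : V) (hw : w ∈ W) : ∑ i, (B (v i) w • u i - B (u i) w • v i) = w := by
  classical
  have huv' : ∀ i j, B (u i) (v j) = -(if j = i then (1 : F) else 0) := fun i j => by
    rw [Cfsg.Lib.Classical.alt_swap hA (v j) (u i), (huv j i).2.2]
  set ex : V → V := fun w => ∑ i, (B (v i) w • u i - B (u i) w • v i) with hex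
  have hexm : ∀ w, ex w ∈ W := fun w => Submodule.sum_mem _ fun i _ =>
    W.sub_mem (W.smul_mem _ (hm i).1) (W.smul_mem _ (hm i).2)
  let T : W →ₗ[F] (Fin k → F) × (Fin k → F) :=
    (LinearMap.pi fun i => (B (v i)).comp W.subtype).prod (LinearMap.pi fun i => (B (u i)).comp W.subtype)
  have hTs : LinearMap.range T = ⊤ := by
    rw [LinearMap.range_eq_top]
    rintro ⟨a, b⟩
    refine ⟨⟨∑ i, (a i • u i - b i • v i), Submodule.sum_mem _ fun i _ =>
      W.sub_mem (W.smul_mem _ (hm i).1) (W.smul_mem _ (hm i).2)⟩, Prod.ext (funext fun j => ?_) (funext fun j => ?_)⟩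
    · show B (v j) (∑ i, (a i • u i - b i • v i)) = a j
      simp [map_sum, map_sub, map_smul, (huv j _).2.1, (huv j _).2.2]
    · show B (u j) (∑ i, (a i • u i - b i • v i)) = b j
      simp [map_sum, map_sub, map_smul, (huv j _).1, huv', apply_ite]
  have hker : Module.finrank F (LinearMap.ker T) ≤ 1 := by
    have := T.finrank_range_add_finrank_ker
    rw [hTs, finrank_top, Module.finrank_prod, Module.finrank_fintype_fun_eq_card, Fintype.card_fin] at this
    omega
  have hrest : ∀ z, z ∈ W → ∃ z' : LinearMap.ker T, ((z' : W) : V) = z - ex z := by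
    intro z hz
    refine ⟨⟨⟨z - ex z, W.sub_mem hz (hexm z)⟩, Prod.ext (funext fun j => ?_) (funext fun j => ?_)⟩, rfl⟩
    · show B (v j) (z - ex z) = 0
      simp [hex, map_sum, map_sub, map_smul, (huv j _).2.1, (huv j _).2.2]
    · show B (u j) (z - ex z) = 0
      simp [hex, map_sum, map_sub, map_smul, (huv j _).1, huv', apply_ite]
  obtain ⟨w', hw'⟩ := hrest w hw
  show ex w = w
  symm
  rw [← sub_eq_zero, ← hw']
  by_contra hne
  obtain ⟨z, hz, hwz⟩ := hW _ (w' : W).2 hne
  obtain ⟨z', hz'⟩ := hrest z hz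
  apply hwz
  have hwu : ∀ i, B ((w' : W) : V) (u i) = 0 ∧ B ((w' : W) : V) (v i) = 0 := fun i => by
    have h := (LinearMap.mem_ker.1 w'.2)
    have h1 : B (v i) ((w' : W) : V) = 0 := congrFun (congrArg Prod.fst h) i
    have h2 : B (u i) ((w' : W) : V) = 0 := congrFun (congrArg Prod.snd h) i
    exact ⟨by rw [Cfsg.Lib.Classical.alt_swap hA (u i), h2, neg_zero],
      by rw [Cfsg.Lib.Classical.alt_swap hA (v i), h1, neg_zero]⟩
  have e : z = ((z' : W) : V) + ex z := by rw [hz']; abel
  have hex0 : B ((w' : W) : V) (ex z) = 0 := by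
    simp [hex, map_sum, map_sub, map_smul, (hwu _).1, (hwu _).2]
  rw [e, map_add, hex0, add_zero]
  have hw0 : w' ≠ 0 := fun h => hne (by rw [h]; rfl)
  obtain ⟨c, hc⟩ : ∃ c : F, c • w' = z' := by
    have h1 : Module.finrank F (LinearMap.ker T) = 1 := by
      have : 0 < Module.finrank F (LinearMap.ker T) := Module.finrank_pos_iff_exists_ne_zero.2 ⟨w', hw0⟩
      omega
    exact (finrank_eq_one_iff_of_nonzero' w' hw0).1 h1 z'
  rw [← hc]
  show B ((w' : W) : V) (c • ((w' : W) : V)) = 0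
  rw [map_smul, hA, smul_zero]

theorem J_alt (v : Fin m ⊕ Fin m → F) : v ⬝ᵥ (JJ *ᵥ v) = 0 := by
  simp [Matrix.J, Matrix.fromBlocks_mulVec, dotProduct, Fintype.sum_sum_type, Matrix.neg_mulVec, mul_comm]

/-- The norm property on a sign eigenspace. -/
theorem exists_part (P M e : Mat) (hP : IsUnit P) (hM : JJ * M = Pᵀ * JJ * P) (hee : e * e = e) (hade : ad e = e)
    (hMe : M * e = e * M) : ∃ B : Mat, e * B = B ∧ B * e = B ∧ ad B * B = M * e := by
  classical
  set f := Matrix.toBilin' (JJ : Mat) with hf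
  set f' := Matrix.toBilin' (JJ * M) with hf'
  have hfA : f.IsAlt := fun v => by rw [hf, Matrix.toBilin'_apply']; exact J_alt v
  have hf'A : f'.IsAlt := fun v => by
    rw [hf', Matrix.toBilin'_apply', hM, mul_assoc, ← mulVec_mulVec, dotProduct_mulVec, ← mulVec_transpose,
      transpose_transpose, ← mulVec_mulVec]
    exact J_alt _
  set W := LinearMap.range e.mulVecLin with hWdef
  have hWe : ∀ w ∈ W, e *ᵥ w = w := by
    rintro _ ⟨x, rfl⟩
    show e *ᵥ (e *ᵥ x) = e *ᵥ x
    rw [mulVec_mulVec, hee]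
  have hmv : ∀ (X : Mat) x, e *ᵥ x ∈ W := fun _ x => ⟨x, rfl⟩
  have nd : ∀ K : Mat, IsUnit K → eᵀ * K = K * e → Cfsg.Lib.Classical.NondegOn (Matrix.toBilin' K) W := by
    intro K hK hKe w hw hw0
    by_contra hcon
    push Not at hcon
    apply hw0
    have h0 : Kᵀ *ᵥ w = 0 := by
      refine dotProduct_eq_zero _ fun y => ?_
      rw [mulVec_transpose, ← dotProduct_mulVec]
      calc w ⬝ᵥ K *ᵥ y = (e *ᵥ w) ⬝ᵥ K *ᵥ y := by rw [hWe w hw]
        _ = w ⬝ᵥ K *ᵥ (e *ᵥ y) := by
          rw [mulVec_mulVec, ← hKe, ← mulVec_mulVec, dotProduct_mulVec w eᵀ, vecMul_transpose]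
        _ = 0 := by rw [← Matrix.toBilin'_apply']; exact hcon _ (hmv K y)
    exact (Matrix.mulVec_injective_of_isUnit ((Matrix.isUnit_transpose _).2 hK)) (by rw [h0, mulVec_zero])
  have heJ : eᵀ * JJ = JJ * e := by
    have := form_mul e (1 : Mat)
    rwa [mul_one, mul_one, hade] at this
  have hJ : IsUnit (JJ : Mat) := IsUnit.of_mul_eq_one (-JJ) (by rw [mul_neg, J_sq, neg_neg])
  have hW := nd JJ hJ heJ
  have hW' := nd (JJ * M) (by rw [hM]; exact (((Matrix.isUnit_transpose _).2 hP).mul hJ).mul hP)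
    (by rw [← mul_assoc, heJ, mul_assoc, ← hMe, mul_assoc])
  set k := Module.finrank F W / 2
  obtain ⟨u, v, hm, huv⟩ := Cfsg.Lib.Classical.PSpAut.exists_symp_family f hfA k W hW (by omega)
  obtain ⟨u', v', hm', huv'⟩ := Cfsg.Lib.Classical.PSpAut.exists_symp_family f' hf'A k W hW' (by omega)
  let L : (Fin m ⊕ Fin m → F) →ₗ[F] (Fin m ⊕ Fin m → F) :=
    ∑ i, (((f' (v' i)).comp e.mulVecLin).smulRight (u i) - ((f' (u' i)).comp e.mulVecLin).smulRight (v i))
  set B := LinearMap.toMatrix' L with hB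
  have hBx : ∀ x, B *ᵥ x = ∑ i, (f' (v' i) (e *ᵥ x) • u i - f' (u' i) (e *ᵥ x) • v i) := fun x => by
    rw [hB, LinearMap.toMatrix'_mulVec]
    simp [L]
  have hBW : ∀ x, B *ᵥ x ∈ W := fun x => by
    rw [hBx]
    exact Submodule.sum_mem _ fun i _ => W.sub_mem (W.smul_mem _ (hm i).1) (W.smul_mem _ (hm i).2)
  refine ⟨B, ext_of_mulVec_single fun j => by rw [← mulVec_mulVec, hWe _ (hBW _)],
    ext_of_mulVec_single fun j => by rw [← mulVec_mulVec, hBx, hBx, mulVec_mulVec _ e e, hee], ?_⟩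
  apply hJ.mul_left_cancel
  rw [← form_mul, ← mul_assoc, ← mul_assoc]
  apply Matrix.toBilin'.injective
  refine LinearMap.ext fun x => LinearMap.ext fun y => ?_
  have hl : Matrix.toBilin' (Bᵀ * JJ * B) x y = f (B *ᵥ x) (B *ᵥ y) := by
    rw [hf, Matrix.toBilin'_apply', Matrix.toBilin'_apply', mul_assoc, ← mulVec_mulVec, dotProduct_mulVec,
      vecMul_transpose, ← mulVec_mulVec]
  have hr : Matrix.toBilin' (JJ * M * e) x y = f' (e *ᵥ x) (e *ᵥ y) := by
    rw [hf', Matrix.toBilin'_apply', Matrix.toBilin'_apply', mulVec_mulVec]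
    conv_rhs => rw [← vecMul_transpose, ← dotProduct_mulVec, mulVec_mulVec]
    congr 2
    rw [← mul_assoc, ← mul_assoc, heJ, mul_assoc JJ e M, ← hMe, ← mul_assoc, mul_assoc _ e e, hee]
  rw [hl, hr]
  have e1 := expansion f' hf'A W hW' (k := k) (by omega) u' v' hm' huv' (e *ᵥ x) (hmv 1 x)
  have e2 := expansion f' hf'A W hW' (k := k) (by omega) u' v' hm' huv' (e *ᵥ y) (hmv 1 y)
  conv_rhs => rw [← e1, ← e2]
  have sw : ∀ (B : LinearMap.BilinForm F (Fin m ⊕ Fin m → F)), B.IsAlt → ∀ a b, B a b = -B b a := fun B hB a b =>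
    Cfsg.Lib.Classical.alt_swap hB b a
  rw [hBx, hBx]
  simp [map_sum, map_sub, map_smul, LinearMap.sum_apply, (huv _ _).1, (huv _ _).2.1, (huv _ _).2.2,
    (huv' _ _).1, (huv' _ _).2.1, (huv' _ _).2.2, sw f hfA (u _) (v _), sw f' hf'A (u' _) (v' _), apply_ite, eq_comm]

section Rest

variable [Finite F]

/-- The norm property away from the sign eigenspaces. -/
theorem exists_rest (G Gi M e' ω : Mat) (hM : IsUnit M) (hG : G * Gi = 1) (hadG : ad G = Gi) (hMs : ad M = M)
    (hMG : Commute M G) (hee : e' * e' = e') (hade : ad e' = e') (heG : Commute e' G) (heM : Commute e' M)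
    (hωe : ω * e' = ω) (hωs : ω + ad ω = e') (hωG : Commute ω G) (hωM : Commute ω M) (hωω : Commute ω (ad ω))
    (hωe' : Commute ω e') (hdisc : IsUnit (1 - 4 * (ad ω * ω))) :
    ∃ B : Mat, e' * B = B ∧ B * e' = B ∧ Commute B G ∧ ad B * B = M * e' := by
  classical
  set d := ad ω * ω with hd
  have hads : ∀ {X Y : Mat}, Commute X Y → Commute (ad X) (ad Y) := fun {X Y} h => by
    show ad X * ad Y = ad Y * ad X
    rw [← ad_mul, ← ad_mul, h.eq]
  have hadd : ad d = d := by rw [hd, ad_mul, ad_ad]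
  have hωadG : Commute (ad ω) G := by
    have h : Commute (ad ω) Gi := hadG ▸ hads hωG
    show ad ω * G = G * ad ω
    calc ad ω * G = G * (Gi * ad ω) * G := by rw [← mul_assoc, hG, one_mul]
      _ = G * ad ω * (Gi * G) := by rw [← h.eq]; simp only [mul_assoc]
      _ = G * ad ω := by rw [mul_eq_one_comm.1 hG, mul_one]
  have hωadM : Commute (ad ω) M := hMs ▸ hads hωM
  have hωade : Commute (ad ω) e' := hade ▸ hads hωe'
  let S : Set Mat := {M, e', d}
  let R := Subring.closure S
  have hdM : Commute d M := hωadM.mul_left hωM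
  have hde : Commute d e' := hωade.mul_left hωe'
  have hS : ∀ a ∈ S, ∀ b ∈ S, a * b = b * a := by
    rintro a (rfl | rfl | rfl) b (rfl | rfl | rfl) <;>
      first | rfl | exact heM.eq | exact heM.eq.symm | exact hdM.eq | exact hdM.eq.symm | exact hde.eq | exact hde.eq.symm
  letI : CommRing R := Subring.closureCommRingOfComm hS
  haveI : Finite R := inferInstance
  have hRp : ∀ X ∈ R, ad X = X ∧ Commute X G ∧ Commute X ω := by
    have hc : ∀ X ∈ R, ∀ Y ∈ R, X * Y = Y * X := fun X hX Y hY =>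
      congrArg Subtype.val (mul_comm (⟨X, hX⟩ : R) ⟨Y, hY⟩)
    intro X hX
    induction hX using Subring.closure_induction with
    | mem x hx =>
      rcases hx with rfl | rfl | rfl
      · exact ⟨hMs, hMG, hωM.symm⟩
      · exact ⟨hade, heG, hωe'.symm⟩
      · exact ⟨hadd, hωadG.mul_left hωG, hωω.symm.mul_left (Commute.refl ω)⟩
    | zero => exact ⟨ad_zero, Commute.zero_left _, Commute.zero_left _⟩
    | one => exact ⟨ad_one, Commute.one_left _, Commute.one_left _⟩
    | add x y _ _ hx hy => exact ⟨by rw [ad_add, hx.1, hy.1], hx.2.1.add_left hy.2.1, hx.2.2.add_left hy.2.2⟩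
    | neg x _ hx => exact ⟨by rw [ad_neg, hx.1], hx.2.1.neg_left, hx.2.2.neg_left⟩
    | mul x y hx' hy' hx hy => exact ⟨by rw [ad_mul, hx.1, hy.1, hc y hy' x hx'], hx.2.1.mul_left hy.2.1,
        hx.2.2.mul_left hy.2.2⟩
  let dR : R := ⟨d, Subring.subset_closure (Or.inr (Or.inr rfl))⟩
  let MR : R := ⟨M, Subring.subset_closure (Or.inl rfl)⟩
  let eR : R := ⟨e', Subring.subset_closure (Or.inr (Or.inl rfl))⟩
  have unit_of : ∀ z : R, IsUnit (z : Mat) → IsUnit z := fun z hz => by
    have hinj : Function.Injective fun w : R => z * w := fun a b h => by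
      apply Subtype.ext
      exact hz.mul_left_cancel (congrArg Subtype.val h)
    obtain ⟨w, hw⟩ := (Finite.injective_iff_surjective.1 hinj) 1
    exact IsUnit.of_mul_eq_one w hw
  obtain ⟨x, y, hxy⟩ := Cfsg.Lib.HermNorm.ring_rep dR MR (unit_of _ hdisc) (unit_of _ hM)
  obtain ⟨hxs, hxG, hxω⟩ := hRp x.1 x.2
  obtain ⟨hys, hyG, hyω⟩ := hRp y.1 y.2
  have hxy' : x.1 * x.1 + x.1 * y.1 + d * (y.1 * y.1) = M := by
    have h := congrArg Subtype.val hxy
    simpa only [pow_two, Subring.coe_add, Subring.coe_mul] using h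
  have hyadω : Commute y.1 (ad ω) := hys ▸ hads hyω
  have hex : Commute x.1 e' := congrArg Subtype.val (mul_comm x eR)
  have hey : Commute y.1 e' := congrArg Subtype.val (mul_comm y eR)
  have hyx : y.1 * x.1 = x.1 * y.1 := congrArg Subtype.val (mul_comm y x)
  set B := (x.1 + ω * y.1) * e' with hB
  have he'B : e' * B = B := by
    rw [hB, ← mul_assoc, ((hex.add_left (hωe'.mul_left hey)).symm).eq, mul_assoc, hee]
  refine ⟨B, he'B, by rw [hB, mul_assoc, hee], (hxG.add_left (hωG.mul_left hyG)).mul_left heG, ?_⟩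
  rw [hB, ad_mul, ad_add, ad_mul, hade, hxs, hys]
  have key : (x.1 + y.1 * ad ω) * (x.1 + ω * y.1) * e' = M * e' := by
    rw [← hxy']
    have h1 : (x.1 + y.1 * ad ω) * (x.1 + ω * y.1) = x.1 * x.1 + (ω + ad ω) * (x.1 * y.1) + d * (y.1 * y.1) := by
      have a1 : x.1 * (ω * y.1) = ω * (x.1 * y.1) := by rw [← mul_assoc, hxω.eq, mul_assoc]
      have a2 : y.1 * ad ω * x.1 = ad ω * (x.1 * y.1) := by
        rw [hyadω.eq, mul_assoc, hyx]
      have a3 : y.1 * ad ω * (ω * y.1) = d * (y.1 * y.1) := by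
        rw [mul_assoc, ← mul_assoc (ad ω), ← hd, ← mul_assoc, (hyadω.mul_right hyω).eq, mul_assoc]
      rw [add_mul, mul_add, mul_add, a1, a2, a3]
      noncomm_ring
    rw [h1, hωs]
    have a4 : e' * (x.1 * y.1) * e' = x.1 * y.1 * e' := by
      rw [← (hex.mul_left hey).eq, mul_assoc, hee]
    simp only [add_mul, a4]
  calc e' * (x.1 + y.1 * ad ω) * ((x.1 + ω * y.1) * e') = (x.1 + y.1 * ad ω) * e' * ((x.1 + ω * y.1) * e') := by
        rw [((hex.add_left (hey.mul_left hωade)).symm).eq]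
    _ = (x.1 + y.1 * ad ω) * ((x.1 + ω * y.1) * e') := by rw [mul_assoc, ← hB, he'B]
    _ = M * e' := by rw [← mul_assoc, key]

omit [Finite F] in
theorem fix_of_sq {h : Mat} {N : ℕ} (hN : (N : F) ≠ 0) (hpow : h ^ N = 1) {v : Fin m ⊕ Fin m → F}
    (hv : (h - 1) *ᵥ ((h - 1) *ᵥ v) = 0) : (h - 1) *ᵥ v = 0 := by
  set w := (h - 1) *ᵥ v with hw
  have h1 : h *ᵥ w = w := by rwa [sub_mulVec, one_mulVec, sub_eq_zero] at hv
  have h2 : h *ᵥ v = v + w := by rw [hw, sub_mulVec, one_mulVec]; abel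
  have hi : ∀ i : ℕ, h ^ i *ᵥ v = v + (i : F) • w := fun i => by
    induction i with
    | zero => simp
    | succ i ih =>
      rw [pow_succ', ← mulVec_mulVec, ih, mulVec_add, mulVec_smul, h1, h2, Nat.cast_succ, add_smul, one_smul]
      abel
  have := hi N
  rw [hpow, one_mulVec, left_eq_add, smul_eq_zero] at this
  exact this.resolve_left hN

/-- The symplectic conjugation theorem. -/
theorem exists_conj (A B : Matrix.symplecticGroup (Fin m) F) {N : ℕ} (hN : (N : F) ≠ 0) (hAN : (A : Mat) ^ N = 1)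
    (h : IsConj (A : Mat) (B : Mat)) : IsConj A B := by
  classical
  obtain ⟨P, hP⟩ := h
  set G : Mat := A.1
  set Gi : Mat := ad G
  have hJ : IsUnit (JJ : Mat) := IsUnit.of_mul_eq_one (-JJ) (by rw [mul_neg, J_sq, neg_neg])
  have hGi : Gi * G = 1 := by
    apply hJ.mul_left_cancel
    rw [← form_mul, mul_one, ← mul_assoc]
    exact SymplecticGroup.mem_iff'.1 A.2
  have hGi' : G * Gi = 1 := mul_eq_one_comm.1 hGi
  have hPG : (P : Mat) * G = B.1 * (P : Mat) := hP
  set M : Mat := -(JJ * ((P : Mat)ᵀ * JJ * P)) with hMdef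
  have hJM : JJ * M = (P : Mat)ᵀ * JJ * P := by rw [hMdef, mul_neg, ← mul_assoc, J_sq]; simp
  have hMu : IsUnit M := (hJ.mul ((((Matrix.isUnit_transpose _).2 P.isUnit).mul hJ).mul P.isUnit)).neg
  have hMs : ad M = M := by
    have h : (JJ * M)ᵀ = -(JJ * M) := by
      rw [hJM]
      simp [transpose_mul, Matrix.J_transpose, mul_assoc]
    rw [transpose_mul, Matrix.J_transpose] at h
    rw [ad, mul_assoc]
    have h' : Mᵀ * JJ = JJ * M := by simpa using h
    rw [h', ← mul_assoc, J_sq]; simp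
  have hMG : Commute M G := by
    have h1 : Gᵀ * (JJ * M * G) = JJ * M := by
      rw [hJM]
      calc Gᵀ * ((P : Mat)ᵀ * JJ * P * G) = ((P : Mat) * G)ᵀ * JJ * ((P : Mat) * G) := by
            rw [transpose_mul]; simp only [mul_assoc]
        _ = (P : Mat)ᵀ * ((B.1)ᵀ * JJ * B.1) * P := by rw [hPG, transpose_mul]; simp only [mul_assoc]
        _ = _ := by rw [SymplecticGroup.mem_iff'.1 B.2]
    rw [mul_assoc, form_mul] at h1
    have h2 := hJ.mul_left_cancel h1
    show M * G = G * M
    conv_rhs => rw [← h2]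
    rw [← mul_assoc G, hGi', one_mul]
  obtain ⟨ep, hep2, hepad, hGep, hepG, hepfix, hepc⟩ := exists_avg hN hAN hGi
  -- the eigenvalue minus one
  obtain ⟨em, hem2, hemad, hGem, hemG, hemfix, hemc, hep_em, hodd⟩ : ∃ em : Mat, em * em = em ∧ ad em = em ∧
      G * em = -em ∧ em * G = -em ∧ ((2 : F) ≠ 0 → ∀ v, G *ᵥ v = -v → em *ᵥ v = v) ∧
      (∀ X : Mat, Commute X G → Commute X em) ∧ ep * em = 0 ∧ ((2 : F) = 0 → em = 0) := by
    by_cases h2 : (2 : F) = 0
    · exact ⟨0, zero_mul _, ad_zero, by simp, by simp, fun h => absurd h2 h, fun _ _ => Commute.zero_right _,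
        mul_zero _, fun _ => rfl⟩
    · obtain ⟨e, he2, head, hGe, heG, hefix, hec⟩ := exists_avg (h := -G) (N := 2 * N)
        (by rw [Nat.cast_mul, Nat.cast_two]; exact mul_ne_zero h2 hN)
        (by rw [pow_mul, neg_sq, ← pow_mul, mul_comm, pow_mul, hAN, one_pow]) (by rw [ad_neg, neg_mul_neg]; exact hGi)
      have hGe' : G * e = -e := by rw [neg_mul] at hGe; rw [← neg_neg (G * e), hGe]
      refine ⟨e, he2, head, hGe', by rw [mul_neg] at heG; rw [← neg_neg (e * G), heG],
        fun _ v hv => hefix v (by rw [neg_mulVec, hv, neg_neg]), fun X hX => hec X hX.neg_right, ?_,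
        fun h => absurd h h2⟩
      have h1 : G * (ep * e) = ep * e := by rw [← mul_assoc, hGep]
      have h3 : G * (ep * e) = -(ep * e) := by
        rw [← mul_assoc, (hepc G (Commute.refl G)).eq, mul_assoc, hGe', mul_neg]
      have h4 : (2 : F) • (ep * e) = 0 := by rw [two_smul]; nth_rewrite 2 [← h1]; rw [h3, add_neg_cancel]
      exact (smul_eq_zero.1 h4).resolve_left h2
  have hcG : ∀ X : Mat, Commute X G → Commute X Gi := fun X hX => by
    show X * Gi = Gi * X
    calc X * Gi = Gi * (G * X) * Gi := by rw [← mul_assoc Gi, hGi, one_mul]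
      _ = Gi * X * (G * Gi) := by rw [← hX.eq]; simp only [mul_assoc]
      _ = Gi * X := by rw [hGi', mul_one]
  set E := ep + em with hE
  have hem_ep : em * ep = 0 := by rw [(hepc em (hemc G (Commute.refl G)).symm).eq, hep_em]
  have hEE : E * E = E := by rw [hE, add_mul, mul_add, mul_add, hep2, hem2, hep_em, hem_ep]; simp
  set e' := 1 - E with he'
  have hee : e' * e' = e' := by rw [he', sub_mul, one_mul, mul_sub, mul_one, hEE]; simp
  have hade : ad e' = e' := by rw [he', ad_sub, ad_one, hE, ad_add, hepad, hemad]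
  have hEc : ∀ X : Mat, Commute X G → Commute X E := fun X hX => (hepc X hX).add_right (hemc X hX)
  have he'c : ∀ X : Mat, Commute X G → Commute X e' := fun X hX => (Commute.one_right X).sub_right (hEc X hX)
  set η := G - Gi with hη
  have hηG : Commute η G := (Commute.refl G).sub_left (hcG G (Commute.refl G)).symm
  have hηM : Commute η M := hMG.symm.sub_left (hcG M hMG).symm
  have hadη : ad η = -η := by rw [hη, ad_sub, ad_ad, neg_sub]
  -- invertibility
  have hkey : IsUnit (η * η * e' + E) := by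
    rw [← Matrix.mulVec_injective_iff_isUnit]
    refine (injective_iff_map_eq_zero ((η * η * e' + E).mulVecLin)).2 fun v hv => ?_
    replace hv : (η * η * e' + E) *ᵥ v = 0 := hv
    have hEη : E * (η * η * e') = 0 := by
      have hEe : E * e' = 0 := by rw [he', mul_sub, mul_one, hEE, sub_self]
      rw [← mul_assoc, ← ((hEc η hηG).mul_left (hEc η hηG)).eq, mul_assoc, hEe, mul_zero]
    have hEv : E *ᵥ v = 0 := by
      have := congrArg (fun z => E *ᵥ z) hv
      simpa [mulVec_mulVec, mul_add, hEη, hEE] using this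
    have he'v : e' *ᵥ v = v := by rw [he', sub_mulVec, one_mulVec, hEv, sub_zero]
    rw [add_mulVec, hEv, add_zero, ← mulVec_mulVec, he'v] at hv
    have hG2 : (G * G - 1) *ᵥ v = 0 := by
      refine fix_of_sq (N := N) hN ?_ ?_
      · rw [← pow_two, ← pow_mul, mul_comm, pow_mul, hAN, one_pow]
      · have e : (G * G - 1) * (G * G - 1) = G * G * (η * η) := by
          have e1 : G * G - 1 = G * η := by rw [hη, mul_sub, hGi']
          rw [e1, mul_assoc, ← mul_assoc η G η, hηG.eq]
          simp only [mul_assoc]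
        rw [mulVec_mulVec, e, ← mulVec_mulVec, hv, mulVec_zero]
    by_cases h2 : (2 : F) = 0
    · have hG1 : (G - 1) *ᵥ v = 0 := by
        refine fix_of_sq hN hAN ?_
        rw [mulVec_mulVec, show (G - 1) * (G - 1) = G * G - 1 from ?_]
        · exact hG2
        · have e : (G - 1) * (G - 1) = G * G - 1 - (2 : F) • (G - 1) := by rw [two_smul]; noncomm_ring
          rw [e, h2, zero_smul, sub_zero]
      rw [sub_mulVec, one_mulVec, sub_eq_zero] at hG1
      rw [← hepfix v hG1, show ep = E by rw [hE, hodd h2, add_zero], hEv]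
    · rw [sub_mulVec, one_mulVec, sub_eq_zero, ← mulVec_mulVec] at hG2
      have a1 : ep *ᵥ (v + G *ᵥ v) = v + G *ᵥ v := hepfix _ (by rw [mulVec_add, hG2, add_comm])
      have a2 : em *ᵥ (v - G *ᵥ v) = v - G *ᵥ v := hemfix h2 _ (by rw [mulVec_sub, hG2, neg_sub])
      have b1 : ep *ᵥ (v - G *ᵥ v) = 0 := by rw [mulVec_sub, mulVec_mulVec, hepG, sub_self]
      have b2 : em *ᵥ (v + G *ᵥ v) = 0 := by rw [mulVec_add, mulVec_mulVec, hemG, neg_mulVec, add_neg_cancel]
      have : E *ᵥ ((v + G *ᵥ v) + (v - G *ᵥ v)) = (v + G *ᵥ v) + (v - G *ᵥ v) := by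
        rw [hE, add_mulVec, mulVec_add ep, mulVec_add em, a1, a2, b1, b2]; simp
      rw [show (v + G *ᵥ v) + (v - G *ᵥ v) = (2 : F) • v by rw [two_smul]; abel, mulVec_smul, hEv, smul_zero] at this
      exact (smul_eq_zero.1 this.symm).resolve_left h2
  have he'G : Commute e' G := (he'c G (Commute.refl G)).symm
  have he'M : Commute e' M := (he'c M hMG).symm
  obtain ⟨ω, hωe, hωs, hωG, hωM, hωω, hdisc⟩ : ∃ ω : Mat, ω * e' = ω ∧ ω + ad ω = e' ∧ Commute ω G ∧ Commute ω M ∧
      Commute ω (ad ω) ∧ IsUnit (1 - 4 * (ad ω * ω)) := by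
    by_cases h2 : (2 : F) = 0
    · have hneg : ∀ X : Mat, -X = X := fun X => by
        rw [neg_eq_iff_add_eq_zero, ← two_smul F, h2, zero_smul]
      set U := η * e' + E with hU
      have hUU : IsUnit U := by
        have e : U * U = η * η * e' + E := by
          have hEe : E * e' = 0 := by rw [he', mul_sub, mul_one, hEE, sub_self]
          have hee2 : e' * E = 0 := by rw [he', sub_mul, one_mul, hEE, sub_self]
          rw [hU, add_mul, mul_add (η * e') (η * e') E, mul_add E (η * e') E, hEE, mul_assoc η e' (η * e'), ← mul_assoc e' η, ← (he'c η hηG).eq,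
            mul_assoc η e' e', hee, mul_assoc η e' E, hee2, mul_zero, add_zero, ← mul_assoc E η, ← (hEc η hηG).eq,
            mul_assoc η E e', hEe, mul_zero, zero_add, ← mul_assoc]
        obtain ⟨u, hu⟩ := hkey
        exact isUnit_of_mul_isUnit_left (e ▸ ⟨u, hu⟩ : IsUnit (U * U))
      obtain ⟨u, hu⟩ := hUU
      set Ui : Mat := ((u⁻¹ : Matˣ) : Mat)
      have hUi : Ui * U = 1 := by rw [← hu]; exact Units.inv_mul u
      have hcU : ∀ X : Mat, Commute X G → Commute X Ui := fun X hX => by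
        have : Commute X (u : Mat) := by
          rw [hu, hU]
          exact (((hX.sub_right (hcG X hX))).mul_right (he'c X hX)).add_right (hEc X hX)
        exact this.units_inv_right
      have hUiG : Commute G Ui := hcU G (Commute.refl G)
      have hadU : ad Ui = Ui := by
        have h : ad U = U := by
          rw [hU, ad_add, ad_mul, hade, hadη, mul_neg, ← (he'c η hηG).eq, hneg, hE, ad_add, hepad, hemad]
        have : ad Ui * U = 1 := by
          have hh := congrArg ad (mul_eq_one_comm.1 hUi)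
          rw [ad_mul, h, ad_one] at hh
          exact hh
        calc ad Ui = ad Ui * (U * Ui) := by rw [mul_eq_one_comm.1 hUi, mul_one]
          _ = Ui := by rw [← mul_assoc, this, one_mul]
      have hUie : Commute Ui e' := he'c Ui hUiG.symm
      have hadω : ad (G * Ui * e') = Gi * Ui * e' := by
        rw [ad_mul, ad_mul, hade, hadU]
        rw [← mul_assoc, ← hUie.eq, mul_assoc Ui e', (he'c Gi (hcG G (Commute.refl G)).symm).symm.eq, ← mul_assoc,
          ← (hcU Gi (hcG G (Commute.refl G)).symm).eq]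
      refine ⟨G * Ui * e', by rw [mul_assoc, hee], ?_, ((Commute.refl G).mul_left hUiG.symm).mul_left he'G,
        (hMG.symm.mul_left (hcU M hMG).symm).mul_left he'M, ?_, ?_⟩
      · rw [hadω, ← add_mul, ← add_mul, show G + Gi = η by rw [hη, sub_eq_add_neg, hneg]]
        calc η * Ui * e' = Ui * (η * e') := by rw [(hcU η hηG).eq, mul_assoc]
          _ = Ui * (U * e') := by
            rw [hU, add_mul, mul_assoc η, hee, he', mul_sub E, mul_one, hEE, sub_self, add_zero]
          _ = e' := by rw [← mul_assoc, hUi, one_mul]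
      · have hGiG : Commute Gi G := (hcG G (Commute.refl G)).symm
        have hω : ∀ X : Mat, Commute X G → Commute X (G * Ui * e') := fun X hX =>
          (hX.mul_right (hcU X hX)).mul_right (he'c X hX)
        rw [hadω]
        exact ((hω _ ((hGiG.mul_left hUiG.symm).mul_left he'G))).symm
      · have h4 : (4 : Mat) = 0 := by
          rw [show (4 : Mat) = (4 : F) • 1 by rw [← Algebra.algebraMap_eq_smul_one, map_ofNat],
            show (4 : F) = 2 * 2 by norm_num, h2, mul_zero, zero_smul]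
        rw [h4, zero_mul, sub_zero]
        exact isUnit_one
    · have hη' : Commute η e' := he'c η hηG
      have hadω : ad ((2 : F)⁻¹ • ((1 + η) * e')) = (2 : F)⁻¹ • ((1 - η) * e') := by
        rw [ad_smul, ad_mul, ad_add, ad_one, hadη, hade, ← sub_eq_add_neg,
          ((Commute.one_right e').sub_right hη'.symm).eq]
      refine ⟨(2 : F)⁻¹ • ((1 + η) * e'), by rw [smul_mul_assoc, mul_assoc, hee], ?_,
        (((Commute.one_left G).add_left hηG).mul_left he'G).smul_left _,
        (((Commute.one_left M).add_left hηM).mul_left he'M).smul_left _, ?_, ?_⟩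
      · rw [hadω, ← smul_add, ← add_mul, show (1 : Mat) + η + (1 - η) = (2 : F) • 1 by rw [two_smul]; abel,
          smul_mul_assoc, one_mul, smul_smul, inv_mul_cancel₀ h2, one_smul]
      · rw [hadω]
        refine (Commute.smul_left (Commute.smul_right ?_ _) _)
        have c1 : Commute (1 + η) (1 - η) :=
          ((Commute.one_left _).add_left ((Commute.one_right η).sub_right (Commute.refl η)))
        exact (c1.mul_right ((Commute.one_left e').add_left hη')).mul_left
          ((((Commute.one_left e').sub_left hη').mul_left (Commute.refl e')).symm)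
      · have e : (1 : Mat) - 4 * (ad ((2 : F)⁻¹ • ((1 + η) * e')) * ((2 : F)⁻¹ • ((1 + η) * e'))) = η * η * e' + E := by
          rw [hadω, smul_mul_smul_comm, mul_smul_comm,
            show (4 : Mat) = (4 : F) • 1 by rw [← Algebra.algebraMap_eq_smul_one, map_ofNat], smul_mul_assoc, one_mul,
            smul_smul, show ((2 : F)⁻¹ * (2 : F)⁻¹ * 4) = 1 by field_simp; ring, one_smul]
          have e2 : (1 - η) * e' * ((1 + η) * e') = (1 - η * η) * e' := by
            rw [mul_assoc, ← mul_assoc e', ((Commute.one_right e').add_right hη'.symm).eq, mul_assoc (1 + η), hee,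
              ← mul_assoc]
            congr 1
            noncomm_ring
          rw [e2, he']
          noncomm_ring
        rw [e]
        exact hkey
  have hωe' : Commute ω e' := he'c ω hωG
  obtain ⟨B0, hB01, hB02, hB0G, hB0⟩ :=
    exists_rest G Gi M e' ω hMu hGi' rfl hMs hMG hee hade he'G he'M hωe hωs hωG hωM hωω hωe' hdisc
  obtain ⟨Bp, hBp1, hBp2, hBp⟩ := exists_part (P : Mat) M ep P.isUnit hJM hep2 hepad (hepc M hMG).eq
  obtain ⟨Bm, hBm1, hBm2, hBm⟩ := exists_part (P : Mat) M em P.isUnit hJM hem2 hemad (hemc M hMG).eq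
  have orth : ∀ {a b X Y : Mat}, ad a = a → a * b = 0 → a * X = X → b * Y = Y → ad X * Y = 0 :=
    fun {a b X Y} ha hab hX hY => by
      rw [← hX, ← hY, ad_mul, ha, mul_assoc, ← mul_assoc a, hab, zero_mul, mul_zero]
  have z1 : e' * ep = 0 := by rw [he', sub_mul, one_mul, hE, add_mul, hep2, hem_ep, add_zero, sub_self]
  have z2 : e' * em = 0 := by rw [he', sub_mul, one_mul, hE, add_mul, hem2, hep_em, zero_add, sub_self]
  have z3 : ep * e' = 0 := by rw [he', mul_sub, mul_one, hE, mul_add, hep2, hep_em, add_zero, sub_self]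
  have z4 : em * e' = 0 := by rw [he', mul_sub, mul_one, hE, mul_add, hem2, hem_ep, zero_add, sub_self]
  set Bt := B0 + Bp + Bm with hBt
  have hnorm : ad Bt * Bt = M := by
    rw [hBt, ad_add, ad_add]
    simp only [add_mul, mul_add, orth hade z1 hB01 hBp1, orth hade z2 hB01 hBm1, orth hepad z3 hBp1 hB01,
      orth hepad hep_em hBp1 hBm1, orth hemad z4 hBm1 hB01, orth hemad hem_ep hBm1 hBp1, hB0, hBp, hBm, add_zero,
      zero_add]
    rw [← mul_add, ← mul_add, show e' + ep + em = 1 by rw [he', hE]; abel, mul_one]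
  have hBpG : Commute Bp G := by
    show Bp * G = G * Bp
    conv_lhs => rw [← hBp2, mul_assoc, hepG, hBp2]
    conv_rhs => rw [← hBp1, ← mul_assoc, hGep, hBp1]
  have hBmG : Commute Bm G := by
    show Bm * G = G * Bm
    conv_lhs => rw [← hBm2, mul_assoc, hemG, mul_neg, hBm2]
    conv_rhs => rw [← hBm1, ← mul_assoc, hGem, neg_mul, hBm1]
  have hBtG : Commute Bt G := (hB0G.add_left hBpG).add_left hBmG
  have hBtu : IsUnit Bt := by
    rw [Matrix.isUnit_iff_isUnit_det]
    have := (Matrix.isUnit_iff_isUnit_det _).1 hMu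
    rw [← hnorm, det_mul] at this
    exact (IsUnit.mul_iff.1 this).2
  obtain ⟨b, hb⟩ := hBtu
  set U : Mat := (P : Mat) * ((b⁻¹ : Matˣ) : Mat) with hUdef
  have hUmem : U ∈ Matrix.symplecticGroup (Fin m) F := by
    rw [SymplecticGroup.mem_iff', hUdef, transpose_mul]
    calc _ = ((b⁻¹ : Matˣ) : Mat)ᵀ * (((P : Mat)ᵀ * JJ * P)) * ((b⁻¹ : Matˣ) : Mat) := by simp only [mul_assoc]
      _ = ((b⁻¹ : Matˣ) : Mat)ᵀ * (Btᵀ * (JJ * Bt)) * ((b⁻¹ : Matˣ) : Mat) := by
        rw [form_mul Bt Bt, hnorm, hJM]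
      _ = (Bt * ((b⁻¹ : Matˣ) : Mat))ᵀ * JJ * (Bt * ((b⁻¹ : Matˣ) : Mat)) := by
        rw [transpose_mul]; simp only [mul_assoc]
      _ = JJ := by rw [← hb, Units.mul_inv, transpose_one, one_mul, mul_one]
  refine ⟨toUnits ⟨U, hUmem⟩, ?_⟩
  apply Subtype.ext
  show U * G = B.1 * U
  have hbG : Commute ((b⁻¹ : Matˣ) : Mat) G := (hb ▸ hBtG).units_inv_left
  rw [hUdef, mul_assoc, hbG.eq, ← mul_assoc, hPG, mul_assoc]

end Rest

end Cfsg.Lib.SympSS
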