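import Mathlib

/-!
# A matrix is similar to its transpose
-/

set_option autoImplicit false

open Polynomial Matrix
open scoped DirectSum

namespace Cfsg.Agent.LinAlg

variable {F : Type*} [Field F]

/-- the top coefficient modulo a monic polynomial -/
noncomputable def topCoeff (g : F[X]) (h : F[X]) : F := (h %ₘ g).coeff (g.natDegree - 1)

theorem topCoeff_congr {g : F[X]} (hg : g.Monic) {a b : F[X]} (h : g ∣ a - b) : topCoeff g a = topCoeff g b := by
  have h0 : (a - b) %ₘ g = 0 := (modByMonic_eq_zero_iff_dvd hg).mpr h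
  rw [sub_modByMonic, sub_eq_zero] at h0
  rw [topCoeff, topCoeff, h0]

theorem topCoeff_add (g a b : F[X]) : topCoeff g (a + b) = topCoeff g a + topCoeff g b := by
  rw [topCoeff, add_modByMonic, coeff_add]; rfl

theorem topCoeff_smul (g : F[X]) (c : F) (a : F[X]) : topCoeff g (C c * a) = c * topCoeff g a := by
  rw [← smul_eq_C_mul, topCoeff, smul_modByMonic, coeff_smul]; rfl

theorem exists_topCoeff_ne {g : F[X]} (hg : g.Monic) {h : F[X]} (hh : ¬ g ∣ h) : ∃ k, topCoeff g (h * k) ≠ 0 := by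
  set r := h %ₘ g with hr
  have hr0 : r ≠ 0 := fun e => hh ((modByMonic_eq_zero_iff_dvd hg).mp e)
  have hg1 : g ≠ 1 := fun e => hh (e ▸ one_dvd h)
  have hlt : r.natDegree < g.natDegree := natDegree_modByMonic_lt h hg hg1
  refine ⟨X ^ (g.natDegree - 1 - r.natDegree), ?_⟩
  rw [topCoeff_congr hg (b := r * X ^ (g.natDegree - 1 - r.natDegree)) (by
    rw [← sub_mul]
    refine Dvd.dvd.mul_right ?_ _
    have hdm := modByMonic_add_div h g
    exact ⟨h /ₘ g, by rw [hr]; linear_combination (-1 : F[X]) * hdm⟩)]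
  rw [topCoeff, (modByMonic_eq_self_iff hg).mpr ?_]
  · rw [coeff_mul_X_pow', if_pos (by omega), show g.natDegree - 1 - (g.natDegree - 1 - r.natDegree) = r.natDegree by omega]
    exact leadingCoeff_ne_zero.mpr hr0
  · rw [degree_mul, degree_X_pow, degree_eq_natDegree hr0, degree_eq_natDegree hg.ne_zero]
    exact_mod_cast (show r.natDegree + (g.natDegree - 1 - r.natDegree) < g.natDegree by omega)

/-- an invertible intertwiner between a matrix and its transpose -/
theorem exists_intertwiner {ι : Type*} [Fintype ι] [DecidableEq ι] (A : Matrix ι ι F) :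
    ∃ P : Matrix ι ι F, IsUnit P.det ∧ P * A = Aᵀ * P := by
  classical
  set T := Matrix.toLin' A with hT
  obtain ⟨J, _, p, hp, e, ⟨E⟩⟩ := Module.equiv_directSum_of_isTorsion (R := F[X]) (M := Module.AEval' T)
    (Module.AEval.isTorsion_of_finiteDimensional F (ι → F) T)
  have hg0 : ∀ i, p i ^ e i ≠ 0 := fun i => pow_ne_zero _ (hp i).ne_zero
  set g : J → F[X] := fun i => p i ^ e i * C (p i ^ e i).leadingCoeff⁻¹ with hgdef
  have hgm : ∀ i, (g i).Monic := fun i => monic_mul_leadingCoeff_inv (hg0 i)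
  have hgd : ∀ i x, g i ∣ x ↔ p i ^ e i ∣ x := fun i x => by
    have hu : IsUnit (C (p i ^ e i).leadingCoeff⁻¹) :=
      isUnit_C.mpr (isUnit_iff_ne_zero.mpr (inv_ne_zero (leadingCoeff_ne_zero.mpr (hg0 i))))
    exact IsUnit.mul_right_dvd hu
  let r : (ι → F) → J → F[X] := fun u i => (E (Module.AEval'.of T u) i).out
  have hr : ∀ u i, (Submodule.Quotient.mk (r u i) : F[X] ⧸ F[X] ∙ p i ^ e i) = E (Module.AEval'.of T u) i :=
    fun u i => Quotient.out_eq _
  let B : (ι → F) → (ι → F) → F := fun u v => ∑ i, topCoeff (g i) (r u i * r v i)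
  have key : ∀ (u : ι → F) (i : J) (h : F[X]),
      (Submodule.Quotient.mk h : F[X] ⧸ F[X] ∙ p i ^ e i) = E (Module.AEval'.of T u) i →
      ∀ k, topCoeff (g i) (r u i * k) = topCoeff (g i) (h * k) := by
    intro u i h hh k
    refine topCoeff_congr (hgm i) ?_
    rw [← sub_mul]
    refine Dvd.dvd.mul_right ?_ _
    rw [hgd, ← Ideal.mem_span_singleton]
    exact (Submodule.Quotient.eq _).mp ((hr u i).trans hh.symm)
  have hsymm : ∀ u v, B u v = B v u := fun u v => Finset.sum_congr rfl fun i _ => by rw [mul_comm]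
  have hadd : ∀ u u' v, B (u + u') v = B u v + B u' v := fun u u' v => by
    show ∑ i, _ = ∑ i, _ + ∑ i, _
    rw [← Finset.sum_add_distrib]
    refine Finset.sum_congr rfl fun i _ => ?_
    rw [key (u + u') i (r u i + r u' i) (by
      rw [Submodule.Quotient.mk_add, hr, hr, map_add, map_add]; rfl), add_mul, topCoeff_add]
  have hsmul : ∀ (c : F) u v, B (c • u) v = c * B u v := fun c u v => by
    show ∑ i, _ = c * ∑ i, _
    rw [Finset.mul_sum]
    refine Finset.sum_congr rfl fun i _ => ?_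
    rw [key (c • u) i (C c * r u i) (by
      rw [← smul_eq_mul, Submodule.Quotient.mk_smul, hr, map_smul]
      rw [show c • Module.AEval'.of T u = (C c : F[X]) • Module.AEval'.of T u from
        (algebraMap_smul F[X] c (Module.AEval'.of T u)).symm, map_smul]
      rfl), mul_assoc, topCoeff_smul]
  have hT' : ∀ u v, B (T u) v = B u (T v) := fun u v => by
    refine Finset.sum_congr rfl fun i _ => ?_
    have hX : ∀ w, (Submodule.Quotient.mk (X * r w i) : F[X] ⧸ F[X] ∙ p i ^ e i) = E (Module.AEval'.of T (T w)) i :=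
      fun w => by
        rw [← Module.AEval'.X_smul_of, map_smul, ← smul_eq_mul, Submodule.Quotient.mk_smul, hr]; rfl
    rw [key (T u) i _ (hX u), mul_comm (r u i) (r (T v) i), key (T v) i _ (hX v)]
    ring_nf
  have hnd : ∀ u, (∀ v, B u v = 0) → u = 0 := by
    intro u hu
    by_contra hne
    have hE : E (Module.AEval'.of T u) ≠ 0 := fun h => hne (by simpa using h)
    obtain ⟨i, hi⟩ : ∃ i, E (Module.AEval'.of T u) i ≠ 0 := by
      by_contra hall
      push Not at hall
      exact hE (DFinsupp.ext hall)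
    have hnd' : ¬ g i ∣ r u i := fun hd => hi (by
      rw [← hr, Submodule.Quotient.mk_eq_zero, Ideal.mem_span_singleton, ← hgd]; exact hd)
    obtain ⟨k, hk⟩ := exists_topCoeff_ne (hgm i) hnd'
    let w := E.symm (DirectSum.lof F[X] J (fun j => F[X] ⧸ F[X] ∙ p j ^ e j) i (Submodule.Quotient.mk k))
    have hw := hu ((Module.AEval'.of T).symm w)
    apply hk
    have hwE : E (Module.AEval'.of T ((Module.AEval'.of T).symm w)) =
        DirectSum.lof F[X] J (fun j => F[X] ⧸ F[X] ∙ p j ^ e j) i (Submodule.Quotient.mk k) := by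
      rw [LinearEquiv.apply_symm_apply, LinearEquiv.apply_symm_apply]
    rw [show B u _ = ∑ j, topCoeff (g j) (r u j * r ((Module.AEval'.of T).symm w) j) from rfl,
      Finset.sum_eq_single i] at hw
    · rw [mul_comm, key _ i k (by rw [hwE, DirectSum.lof_eq_of, DirectSum.of_eq_same]), mul_comm] at hw
      exact hw
    · intro j _ hj
      rw [mul_comm, key _ j 0 (by rw [hwE, DirectSum.lof_eq_of, DirectSum.of_eq_of_ne _ _ _ hj]; exact Submodule.Quotient.mk_zero _),
        zero_mul, topCoeff, zero_modByMonic, coeff_zero]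
    · simp
  let β : (ι → F) →ₗ[F] (ι → F) →ₗ[F] F := LinearMap.mk₂ F B hadd hsmul
    (fun u v v' => by rw [hsymm, hadd, hsymm v, hsymm v'])
    (fun c u v => by rw [hsymm, hsmul, hsymm v]; rfl)
  set P := LinearMap.toMatrix₂' F β with hP
  have hβ : ∀ u v, β u v = u ⬝ᵥ (P *ᵥ v) := fun u v => by
    rw [← Matrix.toLinearMap₂'_apply', hP, Matrix.toLinearMap₂'_toMatrix']
  refine ⟨P, ?_, ?_⟩
  · rw [isUnit_iff_ne_zero]
    intro hd
    obtain ⟨v, hv, hv0⟩ := Matrix.exists_vecMul_eq_zero_iff.mpr hd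
    refine hv (hnd v fun w => ?_)
    show β v w = 0
    rw [hβ, Matrix.dotProduct_mulVec, hv0, zero_dotProduct]
  · refine (Matrix.toLinearMap₂' F (S₁ := F) (S₂ := F)).injective (LinearMap.ext₂ fun u v => ?_)
    rw [Matrix.toLinearMap₂'_apply', Matrix.toLinearMap₂'_apply', ← Matrix.mulVec_mulVec, ← hβ,
      ← Matrix.mulVec_mulVec, Matrix.dotProduct_mulVec u Aᵀ, Matrix.vecMul_transpose, ← hβ]
    exact (hT' u v).symm

/-- similarity to the transpose, as conjugacy -/
theorem isConj_transpose {ι : Type*} [Fintype ι] [DecidableEq ι] (A : Matrix ι ι F) : IsConj A Aᵀ := by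
  obtain ⟨P, hP, hPA⟩ := exists_intertwiner A
  exact ⟨((Matrix.isUnit_iff_isUnit_det P).mpr hP).unit, hPA⟩

end Cfsg.Agent.LinAlg
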